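import Mathlib.LinearAlgebra.Eigenspace.Pi
import Mathlib.LinearAlgebra.Eigenspace.Semisimple
import Mathlib.LinearAlgebra.Eigenspace.Triangularizable
import Mathlib.LinearAlgebra.Charpoly.ToMatrix
import Mathlib.LinearAlgebra.Matrix.Charpoly.Basic
import Mathlib.Analysis.SpecialFunctions.Complex.CircleAddChar
import Mathlib.RingTheory.RootsOfUnity.AlgebraicallyClosed
import Mathlib.RingTheory.IntegralDomain

/-!
# Eigenvalue multisets of elements of prime order, and counting of weights (helper38)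
-/

set_option autoImplicit false

namespace Cfsg.Lib.Cor.AltE

open Module Polynomial

variable {k : Type*} [Field k] {V : Type*} [AddCommGroup V] [Module k V] {r : ℕ}

theorem exists_eta [IsAlgClosed k] [NeZero r] (h : (r : k) ≠ 0) :
    ∃ η : AddChar (ZMod r) k, Function.Injective η ∧ ∀ a : k, a ^ r = 1 → ∃ j, η j = a := by
  have : NeZero (r : k) := ⟨h⟩
  obtain ⟨ζ, hζ⟩ := HasEnoughRootsOfUnity.exists_primitiveRoot k r
  refine ⟨AddChar.zmodChar r hζ.pow_eq_one, fun a b e => ?_, fun a ha => ?_⟩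
  · exact ZMod.val_injective r (hζ.pow_inj a.val_lt b.val_lt e)
  · obtain ⟨i, -, rfl⟩ := hζ.eq_pow_of_pow_eq_one ha
    exact ⟨i, AddChar.zmodChar_apply' _ _⟩

/-- `X` is diagonalisable with eigenvalues `η y`, `y ∈ Y`. -/
def Diag (η : AddChar (ZMod r) k) (X : End k V) (Y : Multiset (ZMod r)) : Prop :=
  ∃ (ι : Type) (_ : Fintype ι) (b : Basis ι k V) (y : ι → ZMod r),
    (∀ a, X (b a) = η (y a) • b a) ∧ Y = Finset.univ.val.map y

variable {η : AddChar (ZMod r) k} {X : End k V} {Y Y' : Multiset (ZMod r)}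

theorem Diag.roots [FiniteDimensional k V] (h : Diag η X Y) : X.charpoly.roots = Y.map η := by
  classical
  obtain ⟨ι, _, b, y, h1, rfl⟩ := h
  have h2 : LinearMap.toMatrix b b X = Matrix.diagonal fun a => η (y a) := by
    ext i j
    rw [LinearMap.toMatrix_apply, h1, map_smul, b.repr_self, Matrix.diagonal_apply]
    by_cases e : i = j
    · simp [e]
    · simp [e]
  rw [← X.charpoly_toMatrix b, h2, Matrix.charpoly_diagonal, ← roots_multiset_prod_X_sub_C
    ((Finset.univ.val.map y).map η), Multiset.map_map, Multiset.map_map]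
  rfl

theorem Diag.unique [FiniteDimensional k V] (hη : Function.Injective η) (h : Diag η X Y)
    (h' : Diag η X Y') : Y = Y' :=
  Multiset.map_injective hη (h.roots.symm.trans h'.roots)

theorem Diag.card (h : Diag η X Y) : Y.card = finrank k V := by
  obtain ⟨ι, _, b, y, -, rfl⟩ := h
  rw [Multiset.card_map, finrank_eq_card_basis b]
  rfl

theorem Diag.conj {H : Type*} [Group H] {ρ : H →* End k V} {x : H} (h : Diag η (ρ x) Y) (g : H) :
    Diag η (ρ (g * x * g⁻¹)) Y := by
  obtain ⟨ι, _, b, y, h1, rfl⟩ := h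
  refine ⟨ι, inferInstance, b.map (LinearEquiv.ofLinearMap (ρ g) (ρ g⁻¹) ?_ ?_), y, fun a => ?_, rfl⟩
  · rw [← End.mul_eq_comp, ← map_mul, mul_inv_cancel, map_one]; rfl
  · rw [← End.mul_eq_comp, ← map_mul, inv_mul_cancel, map_one]; rfl
  · change ρ _ (ρ g (b a)) = _ • ρ g (b a)
    rw [← End.mul_apply, ← map_mul, inv_mul_cancel_right, map_mul, End.mul_apply, h1, map_smul]

theorem Diag.pow (h : Diag η X Y) (n : ℕ) : Diag η (X ^ n) (Y.map fun c => (n : ZMod r) * c) := by
  obtain ⟨ι, _, b, y, h1, rfl⟩ := h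
  refine ⟨ι, inferInstance, b, fun a => n * y a, fun a => ?_, by rw [Multiset.map_map]; rfl⟩
  beta_reduce
  rw [← nsmul_eq_mul, AddChar.map_nsmul_eq_pow]
  induction n with
  | zero => simp
  | succ n ih => rw [pow_succ', End.mul_apply, ih, map_smul, h1, smul_smul, pow_succ]

theorem Diag.eq_smul (h : Diag η X Y) {j : ZMod r} (hj : Y.count j = finrank k V) :
    X = η j • (1 : End k V) := by
  rw [← h.card, Multiset.count_eq_card] at hj
  obtain ⟨ι, _, b, y, h1, rfl⟩ := h
  exact b.ext fun a => by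
    rw [h1, hj (y a) (Multiset.mem_map_of_mem _ (Finset.mem_univ a))]; rfl

/-- A finite abelian group of exponent `r` is diagonalisable. -/
theorem exists_basis [IsAlgClosed k] [FiniteDimensional k V] (hr : (r : k) ≠ 0)
    (hη : Function.Injective η) (hη' : ∀ a : k, a ^ r = 1 → ∃ j, η j = a) {A : Type*} [CommGroup A]
    (ρ : A →* End k V) (hA : ∀ x : A, x ^ r = 1) :
    ∃ (ι : Type) (_ : Fintype ι) (b : Basis ι k V) (w : ι → A →* Multiplicative (ZMod r)),
      ∀ x a, ρ x (b a) = η (w a x).toAdd • b a := by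
  have h1 := End.iSup_iInf_maxGenEigenspace_eq_top_of_iSup_maxGenEigenspace_eq_top_of_commute
    (fun x => ρ x) (fun x y _ => (Commute.all x y).map ρ)
    fun x => End.iSup_maxGenEigenspace_eq_top _
  have h2 : ∀ x, (ρ x).IsFinitelySemisimple := fun x =>
    (End.isSemisimple_of_squarefree_aeval_eq_zero
      (X_pow_sub_one_separable_iff.mpr hr).squarefree (by
        rw [map_sub, map_pow, aeval_X, ← map_pow, hA, map_one, map_one,
          sub_self])).isFinitelySemisimple
  simp only [(h2 _).maxGenEigenspace_eq_eigenspace] at h1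
  obtain ⟨S, hS, h3, h4⟩ := exists_linearIndependent k {v : V | ∃ χ : A → k, ∀ x, ρ x v = χ x • v}
  have h5 : ⊤ ≤ Submodule.span k (Set.range ((↑) : S → V)) := by
    rw [Subtype.range_coe, h3, ← h1]
    exact iSup_le fun χ v hv => Submodule.subset_span
      ⟨χ, fun x => End.mem_eigenspace_iff.mp ((Submodule.mem_iInf _).mp hv x)⟩
  have := h4.finite
  let b := (Basis.mk h4 h5).reindex (Finite.equivFin S)
  have h6 : ∀ a x, ∃ j, ρ x (b a) = η j • b a := fun a x => by
    obtain ⟨χ, hχ⟩ : ∃ χ : A → k, ∀ x, ρ x (b a) = χ x • b a := by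
      rw [Basis.reindex_apply, Basis.mk_apply]
      exact hS (Subtype.prop _)
    have h7 : ∀ n : ℕ, ρ (x ^ n) (b a) = χ x ^ n • b a := fun n => by
      induction n with
      | zero => simp
      | succ n ih => rw [pow_succ', map_mul, End.mul_apply, ih, map_smul, hχ, smul_smul, pow_succ]
    obtain ⟨j, hj⟩ := hη' (χ x) (smul_left_injective k (b.ne_zero a) (by
      simpa [hA] using (h7 r).symm))
    exact ⟨j, hj ▸ hχ x⟩
  choose w hw using h6
  refine ⟨_, inferInstance, b, fun a => MonoidHom.mk' (fun x => Multiplicative.ofAdd (w a x))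
    fun x y => congrArg Multiplicative.ofAdd (hη (smul_left_injective k (b.ne_zero a) ?_)), fun x a => hw a x⟩
  beta_reduce
  rw [← hw, map_mul, End.mul_apply, hw, map_smul, hw, smul_smul, AddChar.map_add_eq_mul, mul_comm]
  rfl

section tr

variable [NeZero r]

/-- The lifted trace. -/
noncomputable def tr (Y : Multiset (ZMod r)) : ℂ := (Y.map ZMod.stdAddChar).sum

theorem tr_map {ι : Type*} [Fintype ι] (y : ι → ZMod r) :
    tr (Finset.univ.val.map y) = ∑ a, ZMod.stdAddChar (y a) := by
  rw [tr, Multiset.map_map]; rfl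

theorem sum_map_eq {M : Type*} [AddCommMonoid M] (Y : Multiset (ZMod r)) (f : ZMod r → M) :
    (Y.map f).sum = ∑ j, Y.count j • f j := by
  rw [Finset.sum_multiset_map_count]
  exact Finset.sum_subset (Finset.subset_univ _) fun j _ hj => by
    rw [Multiset.count_eq_zero.mpr (by simpa using hj), zero_smul]

theorem sum_std (c : ZMod r) : ∑ x : ZMod r, ZMod.stdAddChar (x * c) = if c = 0 then (r : ℂ) else 0 := by
  simpa using AddChar.sum_mulShift c (ZMod.isPrimitive_stdAddChar r)

theorem sum_shift [Fact (1 < r)] {M : Type*} [AddCommGroup M] {i : ZMod r}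
    (h : ∀ j, j ≠ i → Y.count j = Y.count (i + 1)) (f : ZMod r → M) :
    (Y.map f).sum = ((Y.count i : ℤ) - Y.count (i + 1)) • f i + Y.count (i + 1) • ∑ j, f j := by
  rw [sum_map_eq, ← Finset.add_sum_erase _ _ (Finset.mem_univ i),
    ← Finset.add_sum_erase _ _ (Finset.mem_univ i), smul_add, Finset.smul_sum, ← add_assoc,
    Finset.sum_congr rfl fun j hj => by rw [h j (Finset.ne_of_mem_erase hj)]]
  congr 1
  rw [sub_smul, natCast_zsmul, natCast_zsmul, sub_add_cancel]

theorem tr_shift [Fact (1 < r)] {i : ZMod r} (h : ∀ j, j ≠ i → Y.count j = Y.count (i + 1))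
    {c : ZMod r} (hc : c ≠ 0) : tr (Y.map (· * c)) =
      (((Y.count i : ℤ) - Y.count (i + 1) : ℤ) : ℂ) * ZMod.stdAddChar (i * c) := by
  rw [tr, Multiset.map_map, sum_shift h]
  simp [sum_std, hc]

theorem card_shift [Fact (1 < r)] {i : ZMod r} (h : ∀ j, j ≠ i → Y.count j = Y.count (i + 1)) :
    (Y.card : ℤ) = Y.count i + (r - 1) * Y.count (i + 1) := by
  have := sum_shift h fun _ => (1 : ℤ)
  simp at this
  rw [this]; ring

omit [NeZero r] in
theorem count_of_map {p : ℕ} [Fact p.Prime] {Y : Multiset (ZMod p)}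
    (h : ∀ c : ZMod p, c ≠ 0 → Y.map (c * ·) = Y) (j : ZMod p) (hj : j ≠ 0) :
    Y.count j = Y.count (0 + 1) := by
  rw [← h j hj, zero_add]
  nth_rewrite 2 [h j hj]
  simpa using Multiset.count_map_eq_count' (j * ·) Y (mul_right_injective₀ hj) 1

/-- Orthogonality with the trivial character. -/
theorem sum_tr {A : Type*} [Group A] [Fintype A] {ι : Type*} [Fintype ι]
    (w : ι → A →* Multiplicative (ZMod r)) :
    ∑ x, ∑ a, ZMod.stdAddChar (w a x).toAdd = (Nat.card A * Nat.card {a // w a = 1} : ℕ) := by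
  classical
  rw [Finset.sum_comm, Nat.card_eq_fintype_card, Nat.card_eq_fintype_card, Fintype.card_subtype,
    Finset.card_filter, Finset.mul_sum, Nat.cast_sum]
  refine Finset.sum_congr rfl fun a _ => ?_
  split_ifs with h
  · simp [h]
  · rw [mul_zero, Nat.cast_zero]
    refine sum_hom_units_eq_zero (ZMod.stdAddChar.toMonoidHom.comp (w a)) fun e => h ?_
    ext x
    exact ZMod.injective_stdAddChar ((DFunLike.congr_fun e x).trans (AddChar.map_zero_eq_one _).symm)

/-- A quadratic relation between lifted traces bounds the order of the group. -/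
theorem dvd_of_two {A : Type*} [Group A] [Fintype A] {ι : Type*} [Fintype ι]
    (w : ι → A →* Multiplicative (ZMod r)) {a b : ℤ}
    (h : ∀ x, x ≠ 1 → ∑ i, ZMod.stdAddChar (w i x).toAdd = a ∨
      ∑ i, ZMod.stdAddChar (w i x).toAdd = b) :
    (Nat.card A : ℤ) ∣ (Fintype.card ι - a) * (Fintype.card ι - b) := by
  classical
  have h1 := sum_tr w
  have h2 := sum_tr fun p : ι × ι => w p.1 * w p.2
  simp only [Fintype.sum_prod_type, MonoidHom.mul_apply, toAdd_mul, AddChar.map_add_eq_mul,
    ← Finset.mul_sum, ← Finset.sum_mul] at h2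
  refine ⟨Nat.card {p : ι × ι // w p.1 * w p.2 = 1} - (a + b) * Nat.card {a // w a = 1} + a * b, ?_⟩
  have h3 : ∑ x, (∑ i, ZMod.stdAddChar (w i x).toAdd - a) * (∑ i, ZMod.stdAddChar (w i x).toAdd - b)
      = ((Fintype.card ι : ℂ) - a) * (Fintype.card ι - b) := by
    rw [Finset.sum_eq_single 1 (fun x _ hx => by rcases h x hx with e | e <;> simp [e]) (by simp)]
    simp
  simp only [sub_mul, mul_sub, Finset.sum_sub_distrib, ← Finset.mul_sum, ← Finset.sum_mul, h1, h2,
    Finset.sum_const, Finset.card_univ, ← Nat.card_eq_fintype_card (α := A), nsmul_eq_mul] at h3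
  push_cast at h3
  apply Int.cast_injective (α := ℂ)
  push_cast
  linear_combination -h3

/-- A cubic relation between lifted traces bounds the order of the group. -/
theorem dvd_of_three {A : Type*} [Group A] [Fintype A] {ι : Type*} [Fintype ι]
    (w : ι → A →* Multiplicative (ZMod 3)) (P : A → Prop) [DecidablePred P]
    (h : ∀ x, ∃ (j : ZMod 3) (a : ℤ), (if P x then a = 27 else a = 0 ∨ a = 9) ∧
      ∑ i, ZMod.stdAddChar (w i x).toAdd = a * ZMod.stdAddChar j ∧
      ∑ i, ZMod.stdAddChar (-(w i x).toAdd) = a * ZMod.stdAddChar (-j)) :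
    (Nat.card A : ℤ) ∣ 13122 * (Finset.univ.filter P).card := by
  classical
  have h1 := sum_tr fun p : ι × ι => w p.1 * (w p.2)⁻¹
  have h2 := sum_tr fun p : ι × ι × ι => w p.1 * (w p.2.1 * w p.2.2)
  simp only [Fintype.sum_prod_type, MonoidHom.mul_apply, MonoidHom.inv_apply, toAdd_mul, toAdd_inv,
    AddChar.map_add_eq_mul, ← Finset.mul_sum, ← Finset.sum_mul] at h1 h2
  refine ⟨Nat.card {p : ι × ι × ι // w p.1 * (w p.2.1 * w p.2.2) = 1} -
    9 * Nat.card {p : ι × ι // w p.1 * (w p.2)⁻¹ = 1}, ?_⟩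
  apply Int.cast_injective (α := ℂ)
  rw [Finset.card_filter]
  push_cast at h1 h2 ⊢
  rw [mul_sub, mul_left_comm, ← h1, ← h2, Finset.mul_sum, Finset.mul_sum, ← Finset.sum_sub_distrib]
  refine Finset.sum_congr rfl fun x _ => ?_
  obtain ⟨j, a, h3, h4, h5⟩ := h x
  have h6 : ZMod.stdAddChar j * ZMod.stdAddChar (-j) = (1 : ℂ) := by
    rw [← AddChar.map_add_eq_mul, add_neg_cancel, AddChar.map_zero_eq_one]
  have h7 : ZMod.stdAddChar j ^ 3 = (1 : ℂ) := by
    rw [← AddChar.map_nsmul_eq_pow, nsmul_eq_mul, show ((3 : ℕ) : ZMod 3) = 0 from rfl, zero_mul,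
      AddChar.map_zero_eq_one]
  rw [h4, h5]
  split_ifs at h3 ⊢
  · subst h3; push_cast; linear_combination (9 * 27 ^ 2) * h6 - 27 ^ 3 * h7
  · rcases h3 with rfl | rfl
    · simp
    · push_cast; linear_combination (9 * 9 ^ 2) * h6 - 9 ^ 3 * h7

/-- The number of nonzero coordinates. -/
def supp {s : ℕ} (e : Fin s → ZMod r) : ℕ := ∑ i, if e i = 0 then 0 else 1

/-- The weighted sum of a function of the number of nonzero coordinates. -/
def wsum : List (ℤ × ℤ) → (ℕ → ℤ) → ℤ
  | [], τ => τ 0
  | c :: l, τ => c.1 * wsum l τ + c.2 * wsum l fun n => τ (n + 1)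

theorem sum_supp (s : ℕ) : ∀ (τ : ℕ → ℤ) (γ : Fin s → ZMod r → ℂ) (c : Fin s → ℤ × ℤ),
    (∀ i, γ i 0 = (c i).1) → (∀ i, ∑ x, γ i x = (c i).1 + (c i).2) →
      ∑ e : Fin s → ZMod r, τ (supp e) * ∏ i, γ i (e i) = wsum (List.ofFn c) τ := by
  induction s with
  | zero => intro τ γ c _ _; simp [supp, wsum]
  | succ s ih =>
    intro τ γ c h1 h2
    have h3 := fun τ => ih τ (fun i => γ i.succ) (fun i => c i.succ) (fun i => h1 _) fun i => h2 _
    have h4 := h2 0
    rw [← Finset.add_sum_erase _ _ (Finset.mem_univ 0), h1, add_right_inj] at h4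
    rw [← (Fin.consEquiv fun _ => ZMod r).sum_comp, Fintype.sum_prod_type,
      ← Finset.add_sum_erase _ _ (Finset.mem_univ 0), List.ofFn_succ, wsum]
    push_cast
    rw [← h3, ← h3, ← h4, ← h1, Finset.sum_mul, Finset.mul_sum]
    congr 1
    · refine Finset.sum_congr rfl fun e _ => ?_
      simp [supp, Fin.sum_univ_succ, Fin.prod_univ_succ, mul_left_comm]
    · refine Finset.sum_congr rfl fun x hx => ?_
      rw [Finset.mul_sum]
      refine Finset.sum_congr rfl fun e _ => ?_
      simp [supp, Fin.sum_univ_succ, Fin.prod_univ_succ, mul_left_comm, Finset.ne_of_mem_erase hx,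
        add_comm]

/-- The conditions: none, zero, nonzero. -/
def okF (c : Option Bool) (x : ZMod r) : Prop :=
  match c with
  | none => True
  | some true => x = 0
  | some false => x ≠ 0

/-- The coefficients attached to a condition. -/
def prF (r : ℤ) (c : Option Bool) : ℤ × ℤ :=
  match c with
  | none => (1, 0)
  | some true => (1, r - 1)
  | some false => (r - 1, 1 - r)

/-- Counting weights with prescribed vanishing. -/
theorem count_weights {s : ℕ} {ι : Type*} [Fintype ι]
    (w : ι → Multiplicative (Fin s → ZMod r) →* Multiplicative (ZMod r)) (τ : ℕ → ℤ)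
    (h : ∀ e, ∑ a, ZMod.stdAddChar (w a (.ofAdd e)).toAdd = τ (supp e)) (c : Fin s → Option Bool) :
    wsum (List.ofFn fun i => prF r (c i)) τ = (∏ i, if c i = none then 1 else (r : ℤ)) *
      Nat.card {a // ∀ i, okF (c i) (w a (.ofAdd (Pi.single i 1))).toAdd} := by
  classical
  apply Int.cast_injective (α := ℂ)
  rw [← sum_supp (r := r) s τ (fun i x => match c i with
      | none => if x = 0 then 1 else 0
      | some true => 1
      | some false => (if x = 0 then r else 0) - 1) _
    (fun i => by rcases c i with _ | _ | _ <;> simp [prF])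
    (fun i => by rcases c i with _ | _ | _ <;> simp [prF]),
    Nat.card_eq_fintype_card, Fintype.card_subtype, Finset.card_filter]
  simp only [← h, Finset.sum_mul]
  push_cast
  rw [Finset.sum_comm, Finset.mul_sum]
  refine Finset.sum_congr rfl fun a _ => ?_
  have h1 : ∀ e : Fin s → ZMod r, ZMod.stdAddChar (w a (.ofAdd e)).toAdd =
      ∏ i, ZMod.stdAddChar (e i * (w a (.ofAdd (Pi.single i 1))).toAdd) := fun e => by
    have h2 : Multiplicative.ofAdd e = ∏ i, Multiplicative.ofAdd (Pi.single i 1) ^ (e i).val := by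
      rw [← Finset.univ_sum_single e, ofAdd_sum]
      refine Finset.prod_congr rfl fun i _ => ?_
      rw [← ofAdd_nsmul, ← Pi.single_smul, Finset.univ_sum_single]
      simp
    rw [h2, ← AddChar.toMonoidHom_apply, map_prod, map_prod]
    refine Finset.prod_congr rfl fun i _ => ?_
    rw [map_pow (w a), AddChar.toMonoidHom_apply, toAdd_pow, nsmul_eq_mul, ZMod.natCast_zmod_val]
  simp only [h1, ← Finset.prod_mul_distrib]
  rw [← Fintype.prod_sum fun i (x : ZMod r) =>
    ZMod.stdAddChar (x * (w a (.ofAdd (Pi.single i 1))).toAdd) *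
    (match c i with
      | none => if x = 0 then 1 else 0
      | some true => 1
      | some false => (if x = 0 then (r : ℂ) else 0) - 1)]
  have h2 : ∀ (p : Fin s → Prop) [Decidable (∀ i, p i)], (if ∀ i, p i then (1 : ℂ) else 0) =
      ∏ i, if p i then 1 else 0 := fun p _ => by convert Fintype.prod_boole.symm
  rw [h2, ← Finset.prod_mul_distrib]
  refine Finset.prod_congr rfl fun i _ => ?_
  rcases c i with _ | _ | _
  · simp [okF]
  · simp only [okF, mul_sub, Finset.sum_sub_distrib, mul_one, sum_std]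
    split_ifs <;> simp_all
  · simp [okF, sum_std]

end tr

end Cfsg.Lib.Cor.AltE
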