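import Cfsg.Agent.Chev.CoreTab
import Cfsg.Agent.Cor.AltELin

/-!
# Reduction of lattice points to the fundamental alcove (helper38)
-/

set_option autoImplicit false

namespace Cfsg.Lib.Cor.AltE

open Cfsg.Lib.Chev.Core Matrix

theorem exists_alcove {ι J I : Type*} [Fintype ι] [Fintype I] {wt : ι → I → ℤ} {β b : J → I → ℤ}
    {p : J → ι → ℤ} {σ : J → ι → ι} {δ : J → ℤ} {ρ : I → ℤ} {c h : ℤ}
    (h1 : ∀ j a, σ j (σ j a) = a) (h2 : ∀ j a i, wt (σ j a) i = wt a i - p j a * β j i)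
    (h3 : ∀ j a, p j a = wt a ⬝ᵥ b j) (h4 : ∀ j i, ∑ a, p j a * wt a i = c * β j i)
    (h5 : ∀ j, β j ⬝ᵥ b j = 2) (h6 : ∀ j, 0 < β j ⬝ᵥ ρ + h * δ j) (hc : 0 < c) (hh : 0 < h)
    {r : ℕ} (hr : 0 < r) (φ : ZMod r → ℕ) (n : I → ℤ) : ∃ n' : I → ℤ,
      ∑ a, φ (wt a ⬝ᵥ n' : ℤ) = ∑ a, φ (wt a ⬝ᵥ n : ℤ) ∧ ∀ j, 0 ≤ β j ⬝ᵥ n' + r * δ j := by
  let g : (I → ℤ) → ℤ := fun m => ∑ a, (wt a ⬝ᵥ (h • m - (r : ℤ) • ρ)) ^ 2
  have hg : ∀ m, 0 ≤ g m := fun m => Finset.sum_nonneg fun _ _ => sq_nonneg _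
  obtain ⟨m, hm, hm'⟩ := (InvImage.wf (fun m => (g m).toNat) Nat.lt_wfRel.wf).has_min
    {m | ∑ a, φ (wt a ⬝ᵥ m : ℤ) = ∑ a, φ (wt a ⬝ᵥ n : ℤ)} ⟨n, rfl⟩
  refine ⟨m, hm, fun j => not_lt.mp fun hu => hm' (m - (β j ⬝ᵥ m + r * δ j) • b j) ?_ ?_⟩
  · refine Eq.trans ?_ hm
    rw [← Equiv.sum_comp (Function.Involutive.toPerm (σ j) (h1 j)) fun a => φ (wt a ⬝ᵥ m : ℤ)]
    refine Finset.sum_congr rfl fun a _ => congrArg φ ?_
    change _ = ((wt (σ j a) ⬝ᵥ m : ℤ) : ZMod r)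
    rw [show wt (σ j a) = wt a - p j a • β j from funext (h2 j a), dotProduct_sub, dotProduct_smul, ← h3, sub_dotProduct, smul_dotProduct]
    simp [mul_comm]
  · have h7 : ∀ x, ∑ a, p j a * (wt a ⬝ᵥ x) = c * (β j ⬝ᵥ x) := fun x => by
      simp only [dotProduct, Finset.mul_sum, ← mul_assoc]
      rw [Finset.sum_comm]
      exact Finset.sum_congr rfl fun i _ => by rw [← Finset.sum_mul, h4]
    set u := β j ⬝ᵥ m + r * δ j with e
    have h8 : g (m - u • b j) = g m - 2 * h * u * ∑ a, p j a * (wt a ⬝ᵥ (h • m - (r : ℤ) • ρ)) +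
        h ^ 2 * u ^ 2 * ∑ a, p j a * (wt a ⬝ᵥ b j) := by
      simp only [g, Finset.mul_sum, ← Finset.sum_sub_distrib, ← Finset.sum_add_distrib]
      refine Finset.sum_congr rfl fun a _ => ?_
      simp only [dotProduct_sub, dotProduct_smul, smul_eq_mul, ← h3]
      ring
    rw [h7, h7, h5, dotProduct_sub, dotProduct_smul, dotProduct_smul, smul_eq_mul, smul_eq_mul,
      ← sub_eq_iff_eq_add.mpr e] at h8
    have h9 := mul_pos (mul_pos (mul_pos (mul_pos hh hc) (Int.natCast_pos.mpr hr))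
      (neg_pos.mpr hu)) (h6 j)
    exact (Int.toNat_lt_toNat (by nlinarith [hg (m - u • b j)])).mpr (by nlinarith)

noncomputable section

/-- The scalar product of two lists. -/
def dot (u : List ℕ) : List ℕ → ℕ :=
  List.rec (fun _ => 0)
    (fun x _ ih t => List.rec 0 (fun y t' _ => Nat.add (Nat.mul x y) (ih t')) t) u

theorem dot_ofFn {l : ℕ} (u : List ℕ) (s : Fin l → ℕ) :
    dot u (List.ofFn s) = ∑ j : Fin l, nth u j * s j := by
  induction u generalizing l with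
  | nil => exact (Finset.sum_eq_zero fun _ _ => zero_mul _).symm
  | cons x u ih =>
    cases l with
    | zero => rfl
    | succ l => rw [List.ofFn_succ, Fin.sum_univ_succ]; exact congrArg _ (ih _)

/-- Check all lists with bounded weighted sum. -/
def enumAll (ms : List ℕ) : ℕ → (List ℕ → Bool) → Bool :=
  List.rec (fun _ f => f []) (fun m _ ih b f => allLt (Nat.succ (Nat.div b m)) fun s =>
    force (Nat.sub b (Nat.mul m s)) fun b => ih b fun t => f (s :: t)) ms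

theorem enumAll_spec {ms : List ℕ} (hm : ∀ m ∈ ms, 0 < m) : ∀ {b : ℕ} {f : List ℕ → Bool},
    enumAll ms b f = true → ∀ t : List ℕ, t.length = ms.length → dot ms t ≤ b → f t = true := by
  induction ms with
  | nil => exact fun h t e _ => List.length_eq_zero_iff.mp e ▸ h
  | cons m ms ih =>
    intro b f h t e hb
    obtain ⟨s, t, rfl⟩ := List.exists_cons_of_length_eq_add_one e
    change m * s + dot ms t ≤ b at hb
    have h1 := allLt_iff.mp (show allLt (Nat.succ (Nat.div b m)) (fun s => force (b - m * s) fun b =>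
      enumAll ms b fun t => f (s :: t)) = true from h) s (Nat.lt_succ_of_le ((Nat.le_div_iff_mul_le
      (hm m List.mem_cons_self)).mpr (by rw [mul_comm]; omega)))
    rw [force_eq] at h1
    exact ih (fun m' h' => hm m' (List.mem_cons_of_mem _ h')) h1 t (Nat.succ_injective e)
      (Nat.le_sub_of_add_le' hb)

/-- Data describing a system of weights and the affine reflections. -/
structure Alc where
  l : ℕ
  N : ℕ
  wts : List ℕ
  th : ℕ
  per : List ℕ
  be : List ℕ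
  ms : List ℕ
  rho : List ℕ
  c : ℕ
  h : ℕ
  U : List (List ℕ)
  d : ℕ
  K : ℕ

namespace Alc

variable (A : Alc)

/-- The weights. -/
def wt (a : ℕ) (i : Fin A.l) : ℤ := sfld (nth A.wts i) a

/-- The affine simple roots. -/
def β (j : ℕ) (i : Fin A.l) : ℤ := sfld (nth A.be j) i

/-- The affine simple coroots. -/
def b (j : ℕ) (i : Fin A.l) : ℤ := if j = 0 then -nth A.ms i else if j = i + 1 then 1 else 0

/-- The pairing of weights and coroots. -/
def p (j a : ℕ) : ℤ := sfld (nth (A.th :: A.wts) j) a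

/-- The reflections. -/
def σ (j a : ℕ) : ℕ := fld 8 (nth A.per j) a

/-- The conditions on the data. -/
def OK : Prop :=
  (∀ j : Fin (A.l + 1), (∀ a : Fin A.N, A.σ j a < A.N ∧ A.σ j (A.σ j a) = a ∧
    A.p j a = A.wt a ⬝ᵥ A.b j ∧ ∀ i, A.wt (A.σ j a) i = A.wt a i - A.p j a * A.β j i) ∧
    (∀ i, ∑ a : Fin A.N, A.p j a * A.wt a i = A.c * A.β j i) ∧ A.β j ⬝ᵥ A.b j = 2 ∧
    0 < A.β j ⬝ᵥ (fun i => nth A.rho i) + A.h * if j = 0 then 1 else 0) ∧
  0 < A.c ∧ 0 < A.h ∧ 0 < A.d ∧ A.U.length = A.N ∧ A.ms.length = A.l ∧ (∀ m ∈ A.ms, 0 < m) ∧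
  A.U.headD [] ∈ A.U ∧ ∀ i, A.β 0 i + ∑ j : Fin A.l, nth A.ms j * A.β (j + 1) i = 0 ∧
    ∀ a : Fin A.N, A.d * (A.wt a i + A.K * ∑ j : Fin A.l, A.β (j + 1) i) =
      ∑ j : Fin A.l, nth (A.U.getD a []) j * A.β (j + 1) i

instance : Decidable A.OK := by unfold OK; infer_instance

/-- The packed multiplicities. -/
def acc (z r : ℕ) (t : List ℕ) : ℕ :=
  List.rec z (fun u _ ih => Nat.add (Nat.pow 512 (Nat.mod (Nat.div (dot u t) A.d) r)) ih) A.U

/-- The check of all points of the alcove. -/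
def chk (z r : ℕ) (Q : ℕ → Bool) : Bool :=
  enumAll A.ms r fun t => bimp (Nat.beq (Nat.mod (dot (A.U.headD []) t) A.d) 0)
    (force (A.acc z r t) Q)

theorem acc_eq (z r : ℕ) (t : List ℕ) :
    A.acc z r t = z + ∑ a : Fin A.U.length, 512 ^ (dot (A.U.getD a []) t / A.d % r) := by
  unfold acc
  induction A.U with
  | nil => simp
  | cons u U ih =>
    rw [List.length_cons, Fin.sum_univ_succ, add_left_comm]
    exact congrArg _ ih

variable {A}

theorem table (h : A.OK) {z r : ℕ} [NeZero r] (hr : r ∣ A.K) {Q : ℕ → Bool}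
    (hQ : A.chk z r Q = true) (n : Fin A.l → ℤ) :
    Q (z + ∑ a : Fin A.N, 512 ^ ((A.wt a ⬝ᵥ n : ℤ) : ZMod r).val) = true := by
  obtain ⟨h1, hc, hh, hd, hU, hm, hm', h0, h2⟩ := h
  obtain ⟨m, e, h3⟩ := exists_alcove (wt := fun a : Fin A.N => A.wt a)
    (β := fun j : Fin (A.l + 1) => A.β j) (b := fun j => A.b j) (p := fun j a => A.p j a)
    (σ := fun j a => ⟨A.σ j a, ((h1 j).1 a).1⟩) (fun j a => Fin.ext ((h1 j).1 a).2.1)
    (fun j a => ((h1 j).1 a).2.2.2) (fun j a => ((h1 j).1 a).2.2.1) (fun j => (h1 j).2.1)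
    (fun j => (h1 j).2.2.1) (fun j => (h1 j).2.2.2) (Int.natCast_pos.mpr hc)
    (Int.natCast_pos.mpr hh) (NeZero.pos r) (fun x => 512 ^ x.val) n
  obtain ⟨s, hs⟩ : ∃ s : Fin A.l → ℕ, ∀ j, (s j : ℤ) = A.β (j + 1) ⬝ᵥ m :=
    ⟨fun j => (A.β (j + 1) ⬝ᵥ m).toNat, fun j => Int.toNat_of_nonneg (by
      simpa [Fin.succ_ne_zero] using h3 j.succ)⟩
  have h4 : ∀ u : List ℕ, (dot u (List.ofFn s) : ℤ) =
      (fun i => ∑ j : Fin A.l, nth u j * A.β (j + 1) i) ⬝ᵥ m := fun u => by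
    simp only [dot_ofFn, Nat.cast_sum, Nat.cast_mul, hs, dotProduct, Finset.mul_sum, Finset.sum_mul,
      mul_assoc]
    exact Finset.sum_comm
  have h5 : ∀ a : Fin A.N, (dot (A.U.getD a []) (List.ofFn s) : ℤ) =
      A.d * (A.wt a ⬝ᵥ m + A.K * (fun i => ∑ j : Fin A.l, A.β (j + 1) i) ⬝ᵥ m) := fun a => by
    simp only [h4, ← fun i => (h2 i).2 a, dotProduct, Finset.mul_sum, ← Finset.sum_add_distrib]
    exact Finset.sum_congr rfl fun i _ => by rw [← Finset.mul_sum]; ring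
  have h6 := enumAll_spec hm' hQ (List.ofFn s) (by rw [List.length_ofFn, hm]) (by
    have := h3 0
    rw [← Int.ofNat_le, h4, show (fun i => ∑ j : Fin A.l, nth A.ms j * A.β (j + 1) i) = -A.β 0 from
      funext fun i => eq_neg_of_add_eq_zero_right (h2 i).1, neg_dotProduct]
    simp only [Fin.val_zero, if_true, mul_one] at this
    omega)
  rw [bimp_iff, force_eq, acc_eq] at h6
  rw [← e]
  convert h6 (Nat.beq_eq ▸ Nat.mod_eq_zero_of_dvd ?_) using 3
  · refine Fintype.sum_equiv (finCongr hU.symm) _ _ fun a => congrArg _ ?_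
    rw [← ZMod.val_natCast, ← Int.cast_natCast, Int.natCast_div, finCongr_apply, Fin.val_cast, h5,
      Int.mul_ediv_cancel_left _ (Int.natCast_pos.mpr hd).ne', Int.cast_add, Int.cast_mul,
      Int.cast_natCast, (ZMod.natCast_eq_zero_iff _ _).mpr hr, zero_mul, add_zero]
  · obtain ⟨a, ha, e'⟩ := List.getElem_of_mem h0
    rw [← Int.natCast_dvd_natCast, ← e', ← List.getD_eq_getElem _ [] ha]
    exact ⟨_, h5 ⟨a, hU ▸ ha⟩⟩

end Alc

/-- The check for multisets in which all nonzero elements have the same multiplicity. -/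
def ratQ (r N : ℕ) (S : List ℕ) (x : ℕ) : Bool :=
  force (∑ j ∈ Finset.range r, 512 ^ j) fun G => allLt (Nat.succ (Nat.div N (Nat.pred r))) fun c =>
    bimp (Nat.beq (Nat.add x c) (Nat.add (Nat.sub N (Nat.mul (Nat.pred r) c)) (Nat.mul c G)))
      (S.contains (Nat.sub N (Nat.mul (Nat.pred r) c)))

end

/-- All nonzero elements have the same multiplicity. -/
def Rat {r : ℕ} (Y : Multiset (ZMod r)) : Prop := ∀ j, j ≠ 0 → Y.count j = Y.count (0 + 1)

theorem ratQ_spec {r N : ℕ} [NeZero r] [hr : Fact (1 < r)] {S : List ℕ} {Y : Multiset (ZMod r)}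
    (hN : Y.card = N) (h : ratQ r N S (Y.map fun x => 512 ^ x.val).sum = true) (hY : Rat Y) :
    Y.count 0 ∈ S := by
  have h1 := card_shift hY
  have h2 := sum_shift hY fun x => ((512 ^ x.val : ℕ) : ℤ)
  obtain ⟨r, rfl⟩ : ∃ s, r = s + 2 := ⟨r - 2, by have := hr.out; omega⟩
  rw [← Nat.cast_sum, show ∑ j : ZMod (r + 2), 512 ^ j.val = _ from
    Fin.sum_univ_eq_sum_range (512 ^ ·) (r + 2), ← Function.comp_def Nat.cast, ← Multiset.map_map,
    ← Nat.cast_multiset_sum, ZMod.val_zero] at h2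
  rw [ratQ, force_eq, allLt_iff] at h
  rw [hN] at h1
  push_cast at h1
  have h4 : Nat.sub N (Nat.mul (Nat.pred (r + 2)) (Y.count (0 + 1))) = Y.count 0 :=
    Nat.sub_eq_of_eq_add (by
      change _ = _ + (r + 1) * _
      zify; linear_combination h1)
  have h5 := bimp_iff.mp (h (Y.count (0 + 1)) (Nat.lt_succ_of_le ((Nat.le_div_iff_mul_le
    r.succ_pos).mpr (by zify; nlinarith))))
  rw [h4, Nat.beq_eq, List.contains_iff_mem] at h5
  refine h5 (Nat.cast_injective (R := ℤ) ?_)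
  simp only [Nat.add_eq, Nat.mul_eq, Nat.cast_add, Nat.cast_mul, h2]
  simp only [smul_eq_mul, nsmul_eq_mul, pow_zero, Nat.cast_one]
  ring

end Cfsg.Lib.Cor.AltE
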