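import Cfsg.Agent.Cor.AltERed
import Cfsg.Agent.Perm.PermModule

/-!
# Modules on which `3`-cycles act quadratically are modules of a Clifford algebra (helper38)
-/

set_option autoImplicit false

namespace Cfsg.Lib.Cor.AltE

open Module Equiv Subgroup Cfsg.Lib.Perm.Wag Cfsg.Lib.Known

universe v

section alg

variable {I : Type*} [DecidableEq I] {R : Type*} [Ring R] (F : I → R)

/-- A lattice vector as an element of the algebra. -/
def vecL (l : List (I × ℤ)) : R := (l.map fun p => (p.2 : R) * F p.1).sum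

/-- The bilinear form. -/
def bilL (l l' : List (I × ℤ)) : ℤ :=
  (l.map fun p => (l'.map fun q => p.2 * q.2 * if p.1 = q.1 then 2 else 1).sum).sum

/-- The quadratic form. -/
def quadL : List (I × ℤ) → ℤ
  | [] => 0
  | p :: l => p.2 * p.2 + bilL [p] l + quadL l

variable {F} (h1 : ∀ i, F i * F i = 1) (h2 : ∀ i j, i ≠ j → F i * F j + F j * F i = 1)
include h1 h2

theorem vecL_anti (l l' : List (I × ℤ)) :
    vecL F l * vecL F l' + vecL F l' * vecL F l = bilL l l' := by
  induction l with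
  | nil => simp [vecL, bilL]
  | cons p l ih =>
    have h3 : (p.2 : R) * F p.1 * vecL F l' + vecL F l' * (p.2 * F p.1) =
        ((l'.map fun q => p.2 * q.2 * if p.1 = q.1 then 2 else 1).sum : ℤ) := by
      clear ih
      induction l' with
      | nil => simp [vecL]
      | cons q l' ih =>
        have h4 : F p.1 * F q.1 + F q.1 * F p.1 = ((if p.1 = q.1 then 2 else 1 : ℤ) : R) := by
          split_ifs with e
          · rw [e, h1]; norm_num
          · rw [h2 _ _ e, Int.cast_one]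
        simp only [vecL, List.map_cons, List.sum_cons, Int.cast_add, Int.cast_mul] at ih ⊢
        rw [← ih, ← h4]
        simp only [← zsmul_eq_mul, mul_add, add_mul, smul_mul_assoc, mul_smul_comm, smul_add,
          smul_comm q.2 p.2]
        abel
    simp only [vecL, bilL, List.map_cons, List.sum_cons, Int.cast_add] at ih h3 ⊢
    rw [← ih, ← h3]
    noncomm_ring

theorem vecL_sq (l : List (I × ℤ)) : vecL F l * vecL F l = quadL l := by
  induction l with
  | nil => simp [vecL, quadL]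
  | cons p l ih =>
    have h3 := vecL_anti h1 h2 [p] l
    have h4 : (p.2 : R) * F p.1 * (p.2 * F p.1) = p.2 * p.2 := by
      rw [mul_assoc, ← mul_assoc (F p.1), ← Int.cast_comm, mul_assoc, h1, mul_one]
    simp only [vecL, quadL, List.map_cons, List.sum_cons, Int.cast_add, Int.cast_mul, List.map_nil,
      List.sum_nil, add_zero] at ih h3 ⊢
    rw [← ih, ← h3, ← h4]
    noncomm_ring

omit h1 h2

theorem comm_of_anti {x y z w : R} (e1 : y * z = -(z * y)) (e2 : y * w = -(w * y))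
    (e3 : x * z = -(z * x)) (e4 : x * w = -(w * x)) : x * y * (z * w) = z * w * (x * y) := by
  linear_combination (norm := noncomm_ring) x * e1 * w - x * z * e2 + e3 * w * y - z * e4 * y

theorem swap_of_anti {x y r : R} {α γ : ℤ} (e1 : x * x = α) (e2 : x * y + y * x = γ)
    (e3 : r * x = -(x * r)) (e4 : r * y = -(y * r)) :
    x * y * (x * r) = γ * (x * r) - x * r * (x * y) := by
  linear_combination (norm := noncomm_ring) e2 * x * r + x * e3 * y - x * x * e4 - y * e1 * r +
    e1 * y * r + Int.cast_comm α y * r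

theorem sq_of_anti {x y : R} {α β γ : ℤ} (e1 : x * x = α) (e2 : x * y + y * x = γ)
    (e3 : y * y = β) : x * y * (x * y) = γ * (x * y) - (α * β : ℤ) := by
  rw [Int.cast_mul]
  linear_combination (norm := noncomm_ring) e2 * x * y - y * e1 * y + Int.cast_comm α y * y -
    (α : R) * e3

end alg

variable {k : Type*} [Field k] [IsAlgClosed k]

theorem two_pow_le {W : Type*} [AddCommGroup W] [Module k W] [FiniteDimensional k W]
    {U : Submodule k W} (hU : U ≠ ⊥) {m : ℕ} (x s : Fin m → End k W) (γ δ : Fin m → k)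
    (h1 : ∀ t u, x t * x u = x u * x t) (h2 : ∀ t u, t ≠ u → x t * s u = s u * x t)
    (h3 : ∀ t, x t * s t = γ t • s t - s t * x t) (h4 : ∀ t, x t * x t = γ t • x t - δ t • 1)
    (h5 : ∀ t, γ t ^ 2 - 4 * δ t ≠ 0) (h6 : ∀ t w, s t w = 0 → w = 0)
    (h7 : ∀ t, ∀ w ∈ U, x t w ∈ U) (h8 : ∀ t, ∀ w ∈ U, s t w ∈ U) : 2 ^ m ≤ finrank k U := by
  classical
  obtain ⟨v, hv, hv', χ, hχ⟩ := exists_joint x h1 hU h7
  have h9 : ∀ t, γ t - χ t ≠ χ t := fun t e => h5 t (by
    have := LinearMap.congr_fun (h4 t) v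
    rw [End.mul_apply, hχ, map_smul, hχ, LinearMap.sub_apply, LinearMap.smul_apply, hχ,
      LinearMap.smul_apply, End.one_apply, smul_smul, smul_smul, ← sub_smul] at this
    have := smul_left_injective k hv' this
    linear_combination (γ t - 2 * χ t) * e - 4 * this)
  have key : ∀ S : Finset (Fin m), ∃ w ∈ U, w ≠ 0 ∧
      ∀ t, x t w = (if t ∈ S then γ t - χ t else χ t) • w := fun S => by
    induction S using Finset.induction_on with
    | empty => exact ⟨v, hv, hv', by simpa using hχ⟩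
    | insert u S hu ih =>
      obtain ⟨w, hw, hw', hx⟩ := ih
      refine ⟨s u w, h8 u w hw, mt (h6 u w) hw', fun t => ?_⟩
      by_cases e : t = u
      · subst e
        rw [← End.mul_apply, h3, LinearMap.sub_apply, End.mul_apply, hx, if_neg hu, map_smul,
          if_pos (S.mem_insert_self t), sub_smul, LinearMap.smul_apply]
      · rw [← End.mul_apply, h2 t u e, End.mul_apply, hx, map_smul]
        simp [e]
  choose w hw hw' hx using key
  have h10 : LinearIndependent k (U.subtype ∘ fun S => (⟨w S, hw S⟩ : U)) :=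
    linearIndependent_of_weights x w _ hw' (fun S t => hx S t) fun S S' e => Finset.ext fun t => by
      have := congrFun e t
      by_cases a : t ∈ S <;> by_cases b : t ∈ S' <;> simp only [a, b, if_true, if_false] at this ⊢
      exacts [(h9 t this).elim, (h9 t this.symm).elim]
  simpa using (h10.of_comp U.subtype).fintype_card_le_finrank

/-- The arithmetic conditions on a family of orthogonal planes and a vector. -/
def PlOK {N m : ℕ} (a b : Fin m → List (Fin N × ℤ)) (r : List (Fin N × ℤ)) (M : ℤ) : Prop :=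
  quadL r ∣ M ∧ ∀ t, quadL (a t) ∣ M ∧ bilL (a t) (b t) ^ 2 - 4 * (quadL (a t) * quadL (b t)) ∣ M ∧
    bilL (a t) r = 0 ∧ bilL (b t) r = 0 ∧ ∀ u, t ≠ u → bilL (a t) (a u) = 0 ∧
      bilL (a t) (b u) = 0 ∧ bilL (b t) (b u) = 0

instance {N m : ℕ} (a b : Fin m → List (Fin N × ℤ)) (r : List (Fin N × ℤ)) (M : ℤ) :
    Decidable (PlOK a b r M) := by unfold PlOK; infer_instance

theorem cliff {V : Type*} [AddCommGroup V] [Module k V] [FiniteDimensional k V] [Nontrivial V]
    {N m : ℕ} {a b : Fin m → List (Fin (N + 1) × ℤ)} {r : List (Fin (N + 1) × ℤ)} {M : ℤ}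
    (h : PlOK a b r M) (hM : (M : k) ≠ 0) (c : Fin N → End k V)
    (h1 : ∀ i, 1 + c i + c i * c i = 0)
    (h2 : ∀ i j, i ≠ j → c i * c j + c j * c i + c i + c j + 1 = 0) : 2 ^ m ≤ finrank k V := by
  let A : Fin (N + 1) → End k V := Fin.cons 1 fun i => -c i
  let B : Fin (N + 1) → End k V := Fin.cons 1 fun i => c i + 1
  let F : Fin (N + 1) → End k (V × V) := fun i =>
    (A i ∘ₗ LinearMap.snd k V V).prod (B i ∘ₗ LinearMap.fst k V V)
  have hF : ∀ i j, F i * F j = (A i * B j).prodMap (B i * A j) := fun _ _ => rfl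
  have h3 : ∀ i, F i * F i = 1 := fun i => by
    have : A i * B i = 1 ∧ B i * A i = 1 := by
      refine Fin.cases ⟨mul_one _, mul_one _⟩ (fun i => ⟨?_, ?_⟩) i <;>
        simp only [A, B, Fin.cons_succ] <;> linear_combination (norm := noncomm_ring) -h1 i
    rw [hF, this.1, this.2]; rfl
  have h4 : ∀ i j, i ≠ j → F i * F j + F j * F i = 1 := fun i j => by
    have : i ≠ j → A i * B j + A j * B i = 1 ∧ B i * A j + B j * A i = 1 := by
      refine Fin.cases (Fin.cases (fun e => absurd rfl e) (fun j _ => ?_) j)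
        (fun i => Fin.cases (fun _ => ?_) (fun j e => ⟨?_, ?_⟩) j) i
      · simp [A, B]
      · simp [A, B]
      all_goals
        simp only [A, B, Fin.cons_succ]
        linear_combination (norm := noncomm_ring) -h2 i j fun e' => e (congrArg _ e')
    intro e
    rw [hF, hF, ← LinearMap.prodMap_add, (this e).1, (this e).2]; rfl
  have hne : ∀ z : ℤ, z ∣ M → (z : k) ≠ 0 := by
    rintro z ⟨y, rfl⟩ e
    exact hM (by rw [Int.cast_mul, e, zero_mul])
  have h5 : ∀ l l', bilL l l' = 0 → vecL F l * vecL F l' = -(vecL F l' * vecL F l) :=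
    fun l l' e => eq_neg_of_add_eq_zero_left (by rw [vecL_anti h3 h4, e, Int.cast_zero])
  have h5' : ∀ l l', bilL l' l = 0 → vecL F l * vecL F l' = -(vecL F l' * vecL F l) :=
    fun l l' e => by rw [h5 l' l e, neg_neg]
  have h6 : ∀ l (w : V × V), (w.1 = 0 → (vecL F l w).2 = 0) ∧ (w.2 = 0 → (vecL F l w).1 = 0) :=
    fun l w => by
      induction l with
      | nil => simp [vecL]
      | cons p l ih =>
        simp only [vecL, List.map_cons, List.sum_cons, LinearMap.add_apply, Prod.fst_add,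
          Prod.snd_add] at ih ⊢
        refine ⟨fun e => ?_, fun e => ?_⟩
        · simp [ih.1 e, F, e]
        · simp [ih.2 e, F, e]
  have hc : ∀ (z : ℤ) (X : End k (V × V)), (z : k) • X = z * X := fun z X => by
    rw [Algebra.smul_def, map_intCast]
  rw [(LinearEquiv.ofInjective _ (LinearMap.inl_injective (R := k) (M := V) (M₂ := V))).finrank_eq,
    LinearMap.range_inl]
  refine two_pow_le ?_ (fun t => vecL F (a t) * vecL F (b t)) (fun t => vecL F (a t) * vecL F r)
    (fun t => bilL (a t) (b t)) (fun t => (quadL (a t) * quadL (b t) : ℤ)) (fun t u => ?_)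
    (fun t u e => ?_) (fun t => ?_) (fun t => ?_) (fun t => ?_) (fun t w e => ?_)
    (fun t w hw => (h6 _ _).1 ((h6 _ _).2 hw)) fun t w hw => (h6 _ _).1 ((h6 _ _).2 hw)
  · obtain ⟨w, hw⟩ := exists_ne (0 : V)
    exact (Submodule.ne_bot_iff _).mpr ⟨(w, 0), rfl, fun e => hw (congrArg Prod.fst e)⟩
  · by_cases e : t = u
    · rw [e]
    · obtain ⟨e1, e2, e3⟩ := (h.2 t).2.2.2.2 u e
      exact comm_of_anti (h5' _ _ ((h.2 u).2.2.2.2 t (Ne.symm e)).2.1) (h5 _ _ e3) (h5 _ _ e1)
        (h5 _ _ e2)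
  · exact comm_of_anti (h5' _ _ ((h.2 u).2.2.2.2 t e.symm).2.1) (h5 _ _ (h.2 t).2.2.2.1)
      (h5 _ _ ((h.2 t).2.2.2.2 u e).1) (h5 _ _ (h.2 t).2.2.1)
  · rw [hc]
    exact swap_of_anti (vecL_sq h3 h4 _) (vecL_anti h3 h4 _ _) (h5' _ _ (h.2 t).2.2.1)
      (h5' _ _ (h.2 t).2.2.2.1)
  · rw [hc, hc, mul_one]
    exact sq_of_anti (vecL_sq h3 h4 _) (vecL_anti h3 h4 _ _) (vecL_sq h3 h4 _)
  · exact_mod_cast hne _ (h.2 t).2.1
  · have e1 : vecL F r * vecL F (a t) * (vecL F (a t) * vecL F r) =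
        ((quadL (a t) * quadL r : ℤ) : k) • 1 := by
      rw [mul_assoc, ← mul_assoc (vecL F (a t)), vecL_sq h3 h4, Int.cast_comm, ← mul_assoc,
        vecL_sq h3 h4, ← Int.cast_mul, mul_comm, hc, mul_one]
    have e2 := LinearMap.congr_fun e1 w
    rw [End.mul_apply, e, map_zero, LinearMap.smul_apply, End.one_apply, eq_comm, smul_eq_zero,
      Int.cast_mul, mul_eq_zero] at e2
    exact e2.resolve_left (not_or.mpr ⟨hne _ (h.2 t).1, hne _ h.1⟩)

section grp

variable {Ω : Type*} [Fintype Ω] [DecidableEq Ω] {Γ : Type*} [Group Γ] {f : Γ →* Perm Ω}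
  {V : Type*} [AddCommGroup V] [Module k V] {ρ : Γ →* End k V}

/-- The operator `1 + c + c²`. -/
def nrm (ρ : Γ →* End k V) (c : Γ) : End k V := 1 + ρ c + ρ c * ρ c

/-- The product of the operators `a - 1`. -/
def opX (ρ : Γ →* End k V) (L : List Γ) : End k V := (L.map fun a => ρ a - 1).prod

omit [IsAlgClosed k]

theorem nrm_comm {a b : Γ} (h : Commute a b) : Commute (nrm ρ a) (ρ b - 1) :=
  have := h.map ρ
  Commute.sub_right (((Commute.one_left _).add_left this).add_left (this.mul_left this))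
    (Commute.one_right _)

theorem nrm_conj (g c : Γ) : nrm ρ (g * c * g⁻¹) * ρ g = ρ g * nrm ρ c := by
  simp only [nrm, add_mul, mul_add, one_mul, mul_one, ← map_mul]
  congr 2
  · simp
  · group

theorem nrm_opX {L : List Γ} {a : Γ} (ha : a ∈ L) (h3 : a ^ 3 = 1) (hc : ∀ b ∈ L, Commute a b) :
    nrm ρ a * opX ρ L = 0 := by
  induction L with
  | nil => cases ha
  | cons b L ih =>
    rw [opX, List.map_cons, List.prod_cons, ← mul_assoc]
    rcases List.mem_cons.mp ha with rfl | ha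
    · have : ρ a ^ 3 = 1 := by rw [← map_pow, h3, map_one]
      rw [show nrm ρ a * (ρ a - 1) = ρ a ^ 3 - 1 by rw [nrm]; noncomm_ring, this, sub_self, zero_mul]
    · rw [(nrm_comm (hc b List.mem_cons_self)).eq, mul_assoc]
      exact (congrArg _ (ih ha fun c hc' => hc c (List.mem_cons_of_mem _ hc'))).trans (mul_zero _)

theorem exists_opX (h3 : (3 : k) ≠ 0) {S : Set Γ} (hc : ∀ a ∈ S, ∀ b ∈ S, Commute a b)
    {L : List Γ} (hL : ∀ a ∈ L, a ∈ S) {v : V} (hv : ∀ a ∈ S, nrm ρ a v = 0) :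
    ∃ u, opX ρ L u = v := by
  induction L generalizing v with
  | nil => exact ⟨v, rfl⟩
  | cons b L ih =>
    have hb := hL b List.mem_cons_self
    obtain ⟨u, hu⟩ := ih (fun a ha => hL a (List.mem_cons_of_mem _ ha))
      (v := (-3 : k)⁻¹ • ((ρ b - 1) v + (3 : k) • v)) fun a ha => by
        rw [map_smul, map_add, ← End.mul_apply, (nrm_comm (hc a ha b hb)).eq, End.mul_apply,
          map_smul, hv a ha]
        simp
    refine ⟨u, ?_⟩
    have h1 := hv b hb
    rw [opX, List.map_cons, List.prod_cons, End.mul_apply, ← opX, hu, map_smul,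
      inv_smul_eq_iff₀ (neg_ne_zero.mpr h3)]
    simp only [nrm, LinearMap.add_apply, LinearMap.sub_apply, End.one_apply, End.mul_apply, map_add,
      map_sub, map_smul] at h1 ⊢
    linear_combination (norm := module) h1

theorem opX_comp {W : Type*} [AddCommGroup W] [Module k W] {σ : Γ →* End k W} {φ : V →ₗ[k] W}
    (h : ∀ g v, φ (ρ g v) = σ g (φ v)) (L : List Γ) (v : V) : φ (opX ρ L v) = opX σ L (φ v) := by
  induction L with
  | nil => rfl
  | cons b L ih => simp only [opX, List.map_cons, List.prod_cons, End.mul_apply, LinearMap.sub_apply,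
      End.one_apply, map_sub, h] at ih ⊢; rw [ih]

theorem nrm_comp {W : Type*} [AddCommGroup W] [Module k W] {σ : Γ →* End k W} {φ : V →ₗ[k] W}
    (h : ∀ g v, φ (ρ g v) = σ g (φ v)) (c : Γ) (v : V) : φ (nrm ρ c v) = nrm σ c (φ v) := by
  simp [nrm, h]

/-- The `3`-cycle on a triple. -/
def cyc (t : Fin 3 → Ω) : Perm Ω := c3 (t 0) (t 1) (t 2)

/-- Disjoint triples. -/
def Good {ι : Type*} (T : ι → Fin 3 → Ω) : Prop := ∀ i j x y, T i x = T j y → i = j ∧ x = y

/-- The lift of the `3`-cycle on `t` acts quadratically on `v`. -/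
def QT (f : Γ →* Perm Ω) (ρ : Γ →* End k V) (t : Fin 3 → Ω) (v : V) : Prop :=
  ∀ c : Γ, c ^ 3 = 1 → f c = cyc t → nrm ρ c v = 0

theorem rule (h : Cov f) (h3 : (3 : k) ≠ 0) {m : ℕ} (hn : 3 * m + 5 ≤ Fintype.card Ω)
    {T : Fin (m + 1) → Fin 3 → Ω} (hT : Good T) {a : Fin (m + 1) → Γ} (ha : ∀ i, a i ^ 3 = 1)
    (hf : ∀ i, f (a i) = cyc (T i)) (hc : ∀ i j, Commute (a i) (a j))
    (hA : nrm ρ (a 0) * opX ρ (List.ofFn fun i : Fin m => a i.succ) = 0)
    {T' : Fin (m + 1) → Fin 3 → Ω} (hT' : Good T') {v : V}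
    (hv : ∀ i : Fin m, QT f ρ (T' i.succ) v) : QT f ρ (T' 0) v := by
  obtain ⟨σ, hσ, hσ'⟩ := exists_even (fun p : Fin (m + 1) × Fin 3 => T p.1 p.2)
    (fun p => T' p.1 p.2) (fun _ _ e => Prod.ext (hT _ _ _ _ e).1 (hT _ _ _ _ e).2)
    (fun _ _ e => Prod.ext (hT' _ _ _ _ e).1 (hT' _ _ _ _ e).2) (by simp; omega)
  obtain ⟨g, rfl⟩ := h.surj σ hσ
  have h1 : ∀ i, f (g * a i * g⁻¹) = cyc (T' i) := fun i => by
    rw [map_mul, map_mul, map_inv, hf, cyc, conj_c3, hσ' (i, 0), hσ' (i, 1), hσ' (i, 2), cyc]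
  have h2 : ∀ i, (g * a i * g⁻¹) ^ 3 = 1 := fun i => by rw [conj_pow, ha, mul_one, mul_inv_cancel]
  have h4 : ρ g (ρ g⁻¹ v) = v := by
    rw [← End.mul_apply, ← map_mul, mul_inv_cancel, map_one, End.one_apply]
  obtain ⟨u, hu⟩ := exists_opX (ρ := ρ) h3 (S := Set.range fun i : Fin m => a i.succ)
    (by rintro _ ⟨i, rfl⟩ _ ⟨j, rfl⟩; exact hc _ _) (L := List.ofFn fun i : Fin m => a i.succ)
    (fun b hb => List.mem_ofFn.mp hb) (v := ρ g⁻¹ v) (by
      rintro _ ⟨i, rfl⟩
      by_contra e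
      refine apply_ne_zero (ρ := ρ) e g ?_
      rw [← End.mul_apply, ← nrm_conj, End.mul_apply, h4]
      exact hv i _ (h2 _) (h1 _))
  intro c hc3 hc'
  rw [h.uniq (hc'.trans (h1 0).symm) (by decide) hc3 (h2 0), ← h4, ← End.mul_apply, nrm_conj,
    End.mul_apply, ← hu, ← End.mul_apply _ _ u, hA, LinearMap.zero_apply, map_zero]

omit [Fintype Ω] [DecidableEq Ω] in
theorem Good.cons {m : ℕ} {T : Fin m → Fin 3 → Ω} (hT : Good T) {t : Fin 3 → Ω}
    (ht : Function.Injective t) (h : ∀ i x y, T i x ≠ t y) : Good (Fin.cons t T : Fin (m + 1) → _) := by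
  intro i j x y
  refine Fin.cases (Fin.cases (fun e => ⟨rfl, ht e⟩) (fun j e => (h _ _ _ e.symm).elim) j)
    (fun i => Fin.cases (fun e => (h _ _ _ e).elim) (fun j e => ?_) j) i
  exact ⟨congrArg _ (hT _ _ _ _ e).1, (hT _ _ _ _ e).2⟩

theorem chain {m : ℕ} (hn : 3 * m + 6 ≤ Fintype.card Ω) {P : (Fin 3 → Ω) → Prop}
    (hP : ∀ T : Fin (m + 1) → Fin 3 → Ω, Good T → (∀ i : Fin m, P (T i.succ)) → P (T 0))
    {t : Fin 3 → Ω} (ht : Function.Injective t) (n : ℕ) : ∀ T : Fin m → Fin 3 → Ω, Good T →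
      (∀ i, P (T i)) → (Finset.univ.filter fun i => ∃ x y, T i x = t y).card = n → P t := by
  induction n with
  | zero =>
    intro T hT h e
    rw [Finset.card_eq_zero, Finset.filter_eq_empty_iff] at e
    exact hP _ (hT.cons ht fun i x y e' => e (Finset.mem_univ i) ⟨x, y, e'⟩) h
  | succ n ih =>
    intro T hT h e
    obtain ⟨i₀, hi⟩ := Finset.card_pos.mp ((Nat.succ_pos n).trans_eq e.symm)
    obtain ⟨d, hd⟩ := Function.Embedding.exists_of_card_le_finset (α := Fin 3)
      (s := (Finset.univ.image (fun p : Fin m × Fin 3 => T p.1 p.2) ∪ Finset.univ.image t)ᶜ) (by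
        have h1 := Finset.card_union_le (Finset.univ.image fun p : Fin m × Fin 3 => T p.1 p.2)
          (Finset.univ.image t)
        have h2 := Finset.card_image_le (s := Finset.univ) (f := fun p : Fin m × Fin 3 => T p.1 p.2)
        have h3 := Finset.card_image_le (s := Finset.univ) (f := t)
        simp only [Finset.card_univ, Fintype.card_prod, Fintype.card_fin, Finset.card_compl]
          at h2 h3 ⊢
        omega)
    have hd' : ∀ y, (∀ i x, T i x ≠ d y) ∧ ∀ x, t x ≠ d y := fun y => by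
      simpa using hd ⟨y, rfl⟩
    refine ih (Function.update T i₀ d) (fun i j x y => ?_) (fun i => ?_) ?_
    · rcases eq_or_ne i i₀ with rfl | h1 <;> rcases eq_or_ne j i with rfl | h2
      · simp
      · simpa [h2] using fun e => ((hd' x).1 j y e.symm).elim
      · simpa [h1] using fun e => (hT _ _ _ _ e).2
      · rcases eq_or_ne j i₀ with rfl | h3
        · simpa [h1] using fun e => ((hd' y).1 i x e).elim
        · simpa [h1, h3] using hT i j x y
    · rcases eq_or_ne i i₀ with rfl | h1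
      · rw [Function.update_self]
        exact hP _ (hT.cons d.injective fun i x y => (hd' y).1 i x) h
      · rw [Function.update_of_ne h1]; exact h i
    · rw [← Nat.succ_inj, Nat.succ_eq_add_one, Nat.succ_eq_add_one, ← e, ← Finset.card_erase_add_one hi]
      congr 2
      ext i
      rcases eq_or_ne i i₀ with rfl | h1
      · simpa using fun x y e => (hd' x).2 y e.symm
      · simp [h1]

theorem relations (h : Cov f) (h3 : (3 : k) ≠ 0) [Nontrivial V] (h5 : 5 ≤ Fintype.card Ω)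
    (hirr : ∀ U : Submodule k V, (∀ g, U ≤ U.comap (ρ g)) → U = ⊥ ∨ U = ⊤)
    (hQ : ∀ t, Function.Injective t → ∀ v, QT f ρ t v) {N : ℕ} {t : Fin (N + 2) → Ω}
    (ht : Function.Injective t) : ∃ c : Fin N → End k V, (∀ i, 1 + c i + c i * c i = 0) ∧
      ∀ i j, i ≠ j → c i * c j + c j * c i + c i + c j + 1 = 0 := by
  have e1 : ∀ i : Fin N, t i.succ.succ ≠ t 0 := fun i => ht.ne (Fin.succ_ne_zero _)
  have e2 : ∀ i : Fin N, t i.succ.succ ≠ t 1 := fun i => ht.ne (Fin.succ_succ_ne_one _)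
  have e3 : t 0 ≠ t 1 := ht.ne Fin.zero_ne_one'
  choose c hc hc' using fun i : Fin N => h.lift (by decide : Odd 3) (c3_pow_three (e1 i) (e2 i) e3)
  have h1 : ∀ i, 1 + ρ (c i) + ρ (c i) * ρ (c i) = 0 := fun i => LinearMap.ext fun v =>
    hQ ![t i.succ.succ, t 0, t 1] (inj_of_nodup (by simp [e1, e2, e3])) v _ (hc' i) (hc i)
  refine ⟨fun i => ρ (c i), h1, fun i j hij => ?_⟩
  have e4 : t i.succ.succ ≠ t j.succ.succ := ht.ne (by simpa using hij)
  have hz : f ((c i * c j) ^ 2) = 1 := by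
    rw [map_pow, map_mul, hc, hc, c3_mul_sq (e1 i) (e2 i) e3 (e1 j) (e2 j) e4]
  have h6 : ∀ i, ρ (c i) * ρ (c i) * ρ (c i) = 1 := fun i => by
    rw [← map_mul, ← map_mul, ← pow_three', hc', map_one]
  have key : ∀ (x y : End k V) (ε : ℤ), 1 + x + x * x = 0 → 1 + y + y * y = 0 → x * x * x = 1 →
      y * y * y = 1 → x * y * (x * y) = ε → x * y = ε * ((y + 1) * (x + 1)) :=
    fun x y ε a b a' b' e => by
      linear_combination (norm := noncomm_ring) e * y * y * x * x - x * y * x * b' * x * x -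
        x * y * a' + (ε : End k V) * b * x * x - (ε : End k V) * (y + 1) * a
  have h7 : ρ ((c i * c j) ^ 2) = ρ (c i) * ρ (c j) * (ρ (c i) * ρ (c j)) := by
    rw [sq, map_mul, map_mul]
  rcases hirr (LinearMap.ker (ρ ((c i * c j) ^ 2) + 1)) (fun g v hv => by
    rw [Submodule.mem_comap, LinearMap.mem_ker, ← End.mul_apply, add_mul, ← map_mul, ← h.cen _ hz,
      map_mul, one_mul, ← mul_add_one, End.mul_apply, LinearMap.mem_ker.mp hv, map_zero]) with e | e
  · have h8 : ρ ((c i * c j) ^ 2) = 1 := LinearMap.ext fun v => sub_eq_zero.mp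
      (LinearMap.ker_eq_bot'.mp e _ (by
        have : (ρ ((c i * c j) ^ 2) + 1) * (ρ ((c i * c j) ^ 2) - 1) = 0 := by
          rw [show ∀ x : End k V, (x + 1) * (x - 1) = x ^ 2 - 1 from fun x => by noncomm_ring,
            ← map_pow, h.sq hz, map_one, sub_self]
        exact LinearMap.congr_fun this v))
    have h9 : ρ (c j) * ρ (c i) * (ρ (c j) * ρ (c i)) = (1 : ℤ) := by
      rw [← map_mul, ← map_mul, Int.cast_one, ← h8, show c j * c i * (c j * c i) =
        c j * (c i * c j) ^ 2 * (c j)⁻¹ by rw [sq]; group, h.cen _ hz, mul_inv_cancel_right]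
    have a1 := key _ _ 1 (h1 i) (h1 j) (h6 i) (h6 j) (by rw [← h7, h8, Int.cast_one])
    have a2 := key _ _ 1 (h1 j) (h1 i) (h6 j) (h6 i) h9
    rw [Int.cast_one, one_mul] at a1 a2
    by_cases h2 : (2 : k) = 0
    · have : (2 : End k V) = 0 := by
        rw [← map_ofNat (algebraMap k (End k V)), h2, map_zero]
      linear_combination (norm := noncomm_ring) a1 + this * ((ρ (c j) + 1) * (ρ (c i) + 1))
    · have a3 : ρ (c i) + ρ (c j) + 1 = 0 := smul_right_injective _ h2 (by
        beta_reduce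
        rw [smul_zero, two_smul]
        linear_combination (norm := noncomm_ring) -a1 - a2)
      have a4 : c i ∈ ρ.ker := h.mem_of_normal h5 ρ.ker (g := c i * c j) (by
        rw [MonoidHom.mem_ker, map_mul]
        linear_combination (norm := noncomm_ring) ρ (c i) * a3 - h1 i) (fun e => by
          have := Perm.congr_fun e (t j.succ.succ)
          rw [map_mul, hc, hc, Perm.mul_apply, c3_apply_one (e1 j) e3, c3_apply_two] at this
          exact e2 j this.symm) (by decide : Odd 3) (hc' i)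
      have a5 := h1 i
      rw [MonoidHom.mem_ker.mp a4, mul_one] at a5
      refine absurd (smul_eq_zero.mp (show (3 : k) • (1 : End k V) = 0 by
        rw [← a5]; module)) (not_or.mpr ⟨h3, one_ne_zero⟩)
  · have := key _ _ (-1) (h1 i) (h1 j) (h6 i) (h6 j) (by
      rw [← h7, Int.cast_neg, Int.cast_one]
      exact eq_neg_of_add_eq_zero_left (LinearMap.ker_eq_top.mp e))
    rw [Int.cast_neg, Int.cast_one] at this
    linear_combination (norm := noncomm_ring) this

end grp

theorem spin (p : ℕ) [hp : Fact p.Prime] [CharP k p] {Ω : Type*} [Fintype Ω] [DecidableEq Ω]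
    {H : Type*} [Group H] [Finite H] {π : H →* alternatingGroup Ω} (h : MinCov π)
    (hc : ∀ s : ℕ, s.Prime → s ≠ p → ∀ x, π x = 1 → ∀ j, x ^ s ^ j = 1 → x ∈ center H)
    (h3 : (3 : k) ≠ 0) {m : ℕ} (hn : 3 * (m + 1) + 6 ≤ Fintype.card Ω)
    {T : Fin (m + 2) → Fin 3 → Ω} (hT : Good T) {a : Fin (m + 2) → H} (ha : ∀ i, a i ^ 3 = 1)
    (hf : ∀ i, (π (a i) : Perm Ω) = cyc (T i)) (hab : ∀ i j, Commute (a i) (a j))
    {N l : ℕ} (hN : N + 2 ≤ Fintype.card Ω) {x y : Fin l → List (Fin (N + 1) × ℤ)}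
    {r : List (Fin (N + 1) × ℤ)} {M : ℤ} (hP : PlOK x y r M) (hM : (M : k) ≠ 0) (n : ℕ) :
    ∀ (V : Type v) [AddCommGroup V] [Module k V] [FiniteDimensional k V] (ρ : H →* End k V),
      finrank k V = n → nrm ρ (a 0) * opX ρ (List.ofFn fun i : Fin (m + 1) => a i.succ) = 0 →
      ∀ v : V, v ≠ 0 → (∀ i : Fin (m + 1), nrm ρ (a i.succ) v = 0) →
      2 ^ l ≤ finrank k (LinearMap.range (opX ρ (List.ofFn fun i : Fin (m + 1) => a i.succ))) := by
  induction n using Nat.strong_induction_on with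
  | _ n ih =>
  intro V _ _ _ ρ hV hA v hv hv'
  set L := List.ofFn fun i : Fin (m + 1) => a i.succ
  by_cases hirr : ∀ U : Submodule k V, (∀ g, U ≤ U.comap (ρ g)) → U = ⊥ ∨ U = ⊤
  swap
  · push Not at hirr
    obtain ⟨U, hU, h1, h2⟩ := hirr
    have h4 := Submodule.finrank_lt h2
    have h5 := U.finrank_quotient_add_finrank
    have h6 : finrank k U ≠ 0 := mt Submodule.finrank_eq_zero.mp h1
    by_cases e : v ∈ U
    · let σ := Representation.subrepresentation ρ U hU
      have h7 : ∀ g w, U.subtype (σ g w) = ρ g (U.subtype w) := fun _ _ => rfl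
      refine (ih _ (by omega) U σ rfl (LinearMap.ext fun w => Subtype.ext ?_) ⟨v, e⟩
        (fun e' => hv (congrArg Subtype.val e')) fun i => Subtype.ext ?_).trans ?_
      · exact (nrm_comp h7 _ _).trans ((congrArg _ (opX_comp h7 _ _)).trans
          (LinearMap.congr_fun hA _))
      · exact (nrm_comp h7 _ _).trans (hv' i)
      · rw [← Submodule.finrank_map_subtype_eq]
        refine Submodule.finrank_mono ?_
        rintro _ ⟨_, ⟨w, rfl⟩, rfl⟩
        exact ⟨w, (opX_comp h7 _ _).symm⟩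
    · let σ := Representation.quotient ρ U hU
      have h7 : ∀ g w, U.mkQ (ρ g w) = σ g (U.mkQ w) := fun _ _ => rfl
      refine (ih _ (by omega) _ σ rfl (LinearMap.ext fun w => ?_) (U.mkQ v)
        (mt (Submodule.Quotient.mk_eq_zero U).mp e) fun i => ?_).trans
          ((Submodule.finrank_mono ?_).trans (Submodule.finrank_map_le U.mkQ _))
      · obtain ⟨w, rfl⟩ := U.mkQ_surjective w
        rw [End.mul_apply, ← opX_comp h7, ← nrm_comp h7, ← End.mul_apply, hA]
        rfl
      · rw [← nrm_comp h7, hv', map_zero]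
      · rintro _ ⟨w, rfl⟩
        obtain ⟨w, rfl⟩ := U.mkQ_surjective w
        exact ⟨_, ⟨w, rfl⟩, opX_comp h7 _ _⟩
  have : Nontrivial V := ⟨v, 0, hv⟩
  have h1 : ρ.ker ≤ π.ker := (h.le_ker _ inferInstance).resolve_right fun e => by
    have h1 := hv' 0
    rw [nrm, show ρ _ = 1 from (e ▸ mem_top _ : _ ∈ ρ.ker), mul_one] at h1
    exact hv ((smul_eq_zero.mp (show (3 : k) • v = 0 by
      rw [← h1]; simp only [LinearMap.add_apply, End.one_apply]; module)).resolve_left h3)
  obtain ⟨P, hPn, hPp, -, hP'⟩ := h.exists_sylow p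
  have h2 : P ≤ ρ.ker := by
    obtain ⟨w, -, hw, hw'⟩ := Cfsg.Lib.Perm.exists_fixed_vector_of_isPGroup hPp
      (ρ.comp P.subtype) ⊤ (fun _ _ _ => trivial) top_ne_bot
    have := (hirr (⨅ z : P, LinearMap.eqLocus (ρ z) 1) fun g u hu => by
      simp only [Submodule.mem_comap, Submodule.mem_iInf, LinearMap.mem_eqLocus, End.one_apply]
        at hu ⊢
      intro z
      have := hu ⟨_, hPn.conj_mem _ z.2 g⁻¹⟩
      rw [← End.mul_apply, ← map_mul, show z * g = g * (g⁻¹ * z * g⁻¹⁻¹) by group, map_mul,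
        End.mul_apply, this]).resolve_left
        ((Submodule.ne_bot_iff _).mpr ⟨w, (Submodule.mem_iInf _).mpr hw', hw⟩)
    exact fun z hz => LinearMap.ext fun u =>
      (Submodule.mem_iInf _).mp (this ▸ Submodule.mem_top : u ∈ _) ⟨z, hz⟩
  let φ := QuotientGroup.mk' ρ.ker
  have hφ : Function.Surjective φ := QuotientGroup.mk'_surjective _
  let σ : H ⧸ ρ.ker →* alternatingGroup Ω := QuotientGroup.lift _ π h1
  let τ : H ⧸ ρ.ker →* End k V := QuotientGroup.lift _ ρ le_rfl
  obtain ⟨hσ, hker, h4⟩ := h.card_ker_le hφ (σ := σ) rfl fun z hz =>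
    MinCov.ker_le ((center _).comap φ) (fun s hs z hz j hj => by
      by_cases e : s = p
      · rw [mem_comap, show φ z = 1 from
          (QuotientGroup.eq_one_iff z).mpr (h2 (hP' z hz j (e ▸ hj)))]
        exact one_mem _
      · refine mem_center_iff.mpr fun g => ?_
        obtain ⟨g, rfl⟩ := hφ g
        rw [← map_mul, mem_center_iff.mp (hc s hs e z hz j hj), map_mul]) hz
  have hC : Cov ((alternatingGroup Ω).subtype.comp σ) := by
    refine ⟨fun z hz => mem_center_iff.mp (hker (Subtype.ext hz)), fun z z' hz hz' h5 h6 => ?_,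
      fun g => Perm.mem_alternatingGroup.mp (σ g).2, fun τ hτ => ?_⟩
    · by_contra h7
      have := Fintype.ofFinite σ.ker
      rw [Nat.card_eq_fintype_card] at h4
      exact h4.not_gt (Fintype.two_lt_card_iff.mpr ⟨1, ⟨z, Subtype.ext hz⟩, ⟨z', Subtype.ext hz'⟩,
        fun h => h5 (congrArg Subtype.val h).symm, fun h => h6 (congrArg Subtype.val h).symm,
        fun h => h7 (congrArg Subtype.val h)⟩)
    · obtain ⟨g, hg⟩ := hσ ⟨τ, Perm.mem_alternatingGroup.mpr hτ⟩
      exact ⟨g, congrArg Subtype.val hg⟩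
  set f := (alternatingGroup Ω).subtype.comp σ
  have ha' : ∀ i, φ (a i) ^ 3 = 1 := fun i => by rw [← map_pow, ha, map_one]
  have h5 : ∀ (L : List H), opX τ (L.map φ) = opX ρ L := fun L => by
    rw [opX, List.map_map]; rfl
  let W : Submodule k V := ⨅ c : {c // c ^ 3 = 1 ∧ ∃ t, Function.Injective t ∧ f c = cyc t},
    LinearMap.ker (nrm τ c)
  have hW : W = ⊤ := (hirr W fun g u hu => (Submodule.mem_iInf _).mpr fun ⟨c, hc, t, ht, e⟩ => by
    have := (Submodule.mem_iInf _).mp hu ⟨(φ g)⁻¹ * c * (φ g)⁻¹⁻¹,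
      by rw [conj_pow, hc, mul_one, mul_inv_cancel], (f (φ g)⁻¹) ∘ t, (Equiv.injective _).comp ht,
      by rw [map_mul, map_mul, map_inv f (φ g)⁻¹, e, cyc, conj_c3]; rfl⟩
    have h6 := LinearMap.congr_fun (nrm_conj (ρ := τ) (φ g) ((φ g)⁻¹ * c * (φ g)⁻¹⁻¹)) u
    rw [End.mul_apply, End.mul_apply, LinearMap.mem_ker.mp this, map_zero,
      show φ g * ((φ g)⁻¹ * c * (φ g)⁻¹⁻¹) * (φ g)⁻¹ = c by group] at h6
    exact h6).resolve_left ((Submodule.ne_bot_iff _).mpr ⟨v, (Submodule.mem_iInf _).mpr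
      fun ⟨c, hc, t, ht, e⟩ => chain hn (P := fun t => QT f τ t v) (fun T' hT' => rule hC h3
        (by omega) hT ha' hf (fun i j => (hab i j).map φ) (by
          rw [show (List.ofFn fun i : Fin (m + 1) => φ (a i.succ)) = L.map φ from
            (List.map_ofFn ..).symm, h5]; exact hA) hT') ht _ (fun i => T i.succ)
        (fun i j x y e => ⟨Fin.succ_injective _ (hT _ _ _ _ e).1, (hT _ _ _ _ e).2⟩)
        (fun i c hc e => by
          rw [hC.uniq (e.trans (hf _).symm) (by decide) hc (ha' _)]; exact hv' i) rfl c hc e, hv⟩)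
  have hQ : ∀ t, Function.Injective t → ∀ v, QT f τ t v := fun t ht u c hc e =>
    (Submodule.mem_iInf _).mp (hW ▸ Submodule.mem_top : u ∈ W) ⟨c, hc, t, ht, e⟩
  obtain ⟨t⟩ := Function.Embedding.nonempty_of_card_le (α := Fin (N + 2)) (β := Ω) (by simpa using hN)
  obtain ⟨c, hc1, hc2⟩ := relations hC h3 (by omega) (fun U hU => hirr U fun g => hU (φ g)) hQ
    t.injective
  rw [LinearMap.range_eq_top.mpr fun u => exists_opX h3 (S := Set.range fun i : Fin (m + 1) =>
    a i.succ) (by rintro _ ⟨i, rfl⟩ _ ⟨j, rfl⟩; exact hab _ _) (fun b hb => List.mem_ofFn.mp hb) (by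
      rintro _ ⟨i, rfl⟩
      exact hQ _ (fun x y e => (hT _ _ _ _ e).2) u _ (ha' _) (hf _)), finrank_top]
  exact cliff hP hM c hc1 hc2

end Cfsg.Lib.Cor.AltE
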