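import Cfsg.Agent.Cor.AltETor

/-!
# Lifted traces on minimal covers of alternating groups (helper38)
-/

set_option autoImplicit false

namespace Cfsg.Lib.Cor.AltE

open Module Subgroup Equiv Matrix Cfsg.Lib.Perm.Wag

theorem tr_of_rat {r : ℕ} [NeZero r] [Fact (1 < r)] {Y : Multiset (ZMod r)} (h : Rat Y) :
    ∃ c : ℕ, (Y.card : ℤ) = Y.count 0 + (r - 1) * c ∧ tr Y = (((Y.count 0 : ℤ) - c : ℤ) : ℂ) :=
  ⟨_, card_shift h, by simpa using tr_shift h one_ne_zero⟩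

theorem three_of_mem {Y : Multiset (ZMod 3)} (hN : Y.card = 27)
    (h : (Y.map fun x => 512 ^ x.val).sum ∈ [27, 27 * 512, 27 * 512 ^ 2, 15 + 6 * 512 + 6 * 512 ^ 2,
      6 + 15 * 512 + 6 * 512 ^ 2, 6 + 6 * 512 + 15 * 512 ^ 2, 9 + 9 * 512 + 9 * 512 ^ 2]) :
    ∃ i, (∀ j, j ≠ i → Y.count j = Y.count (i + 1)) ∧ ∀ a : ℤ, a = Y.count i - Y.count (i + 1) →
      if ∃ j, Y.count j = 27 then a = 27 else a = 0 ∨ a = 9 := by
  have h1 := sum_map_eq Y fun _ => 1
  have h2 : ∀ f : ZMod 3 → ℕ, ∑ j, f j = f 0 + f 1 + f 2 := Fin.sum_univ_three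
  have h3 : ∀ P : ZMod 3 → Prop, (∀ j, P j) ↔ P 0 ∧ P 1 ∧ P 2 := fun P =>
    ⟨fun h => ⟨h _, h _, h _⟩, fun h j => match j with | 0 => h.1 | 1 => h.2.1 | 2 => h.2.2⟩
  have h4 : ∀ P : ZMod 3 → Prop, (∃ j, P j) ↔ P 0 ∨ P 1 ∨ P 2 := fun P => by
    rw [← not_iff_not, not_exists, h3, not_or, not_or]
  rw [sum_map_eq, h2] at h
  rw [Multiset.map_const', Multiset.sum_replicate, hN, h2] at h1
  simp only [h3, h4, show (0 + 1 : ZMod 3) = 1 from rfl, show (1 + 1 : ZMod 3) = 2 from rfl,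
    show (2 + 1 : ZMod 3) = 0 from rfl, forall_eq, ne_eq, not_true, false_imp_iff, true_and,
    and_true, show (1 : ZMod 3) ≠ 0 by decide, show (2 : ZMod 3) ≠ 0 by decide, not_false_iff,
    show (1 : ZMod 3) ≠ 2 by decide, show (2 : ZMod 3) ≠ 1 by decide, true_imp_iff,
    show (0 : ZMod 3) ≠ 1 by decide, show (0 : ZMod 3) ≠ 2 by decide]
  simp only [List.mem_cons, List.not_mem_nil, or_false, smul_eq_mul, ZMod.val_zero,
    show (1 : ZMod 3).val = 1 from rfl, show (2 : ZMod 3).val = 2 from rfl] at h h1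
  split_ifs <;> omega

theorem shift_cyc {s : ℕ} (i : Fin s) :
    shiftP s 3 (.ofAdd (Pi.single i 1)) = Cfsg.Lib.Known.c3 (i, 0) (i, 1) (i, 2) := by
  ext ⟨j, x⟩ : 1
  change (j, x + Pi.single (M := fun _ => ZMod 3) i 1 j) = Equiv.swap _ _ (Equiv.swap _ _ _)
  rcases eq_or_ne j i with rfl | e
  · simp only [Pi.single_eq_same, ← (Prod.mk_right_injective j).map_swap, Prod.mk.injEq, true_and]
    revert x
    decide
  · simp [swap_apply_def, e]

variable {p l e w : ℕ} [hp : Fact p.Prime] {ι : Type} [Fintype ι] {wt : ι → Fin l → ℤ} {Ω : Type*}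
  [Fintype Ω] [DecidableEq Ω] {H : Type*} [Group H] [Finite H] {π : H →* alternatingGroup Ω}
  {k : Type*} [Field k] [IsAlgClosed k] [CharP k p] {ρ : H →* End k (ι → k)}

/-- The property of the weights which is checked. -/
def Chk (wt : ι → Fin l → ℤ) (r : ℕ) (Q : ℕ → Bool) : Prop :=
  ∀ n : Fin l → ℤ, Q (∑ a, 512 ^ ((wt a ⬝ᵥ n : ℤ) : ZMod r).val) = true

/-- All elements of order `r` are diagonalisable with the given property. -/
structure Spec (ρ : H →* End k (ι → k)) {r : ℕ} (η : AddChar (ZMod r) k) (Q : ℕ → Bool) :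
    Prop where
  ne : (r : k) ≠ 0
  inj : Function.Injective η
  surj : ∀ a : k, a ^ r = 1 → ∃ j, η j = a
  ex : ∀ x, x ^ r = 1 → ∃ Y, Diag η (ρ x) Y
  chk : ∀ x Y, x ^ r = 1 → Diag η (ρ x) Y → Q (Y.map fun x => 512 ^ x.val).sum = true

omit [IsAlgClosed k] in
theorem Diag.intro {r : ℕ} {η : AddChar (ZMod r) k} {V : Type*} [AddCommGroup V] [Module k V]
    {X : End k V} {ι' : Type} [Fintype ι'] {b : Basis ι' k V} {y : ι' → ZMod r}
    (h : ∀ a, X (b a) = η (y a) • b a) : Diag η X (Finset.univ.val.map y) :=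
  ⟨ι', _, b, y, h, rfl⟩

omit [IsAlgClosed k] in
theorem Diag.card' {r : ℕ} {η : AddChar (ZMod r) k} {X : End k (ι → k)} {Y : Multiset (ZMod r)}
    (h : Diag η X Y) : Y.card = Fintype.card ι := h.card.trans (finrank_fintype_fun_eq_card k)

namespace Pack

variable (h : Pack p l e w wt π ρ) {r : ℕ} [hr : Fact r.Prime]
include h

omit [Finite H] in
theorem spec (hpr : p ≠ r) {Q : ℕ → Bool} (hQ : Chk wt r Q) :
    ∃ η : AddChar (ZMod r) k, Spec ρ η Q := by
  have h1 : ¬ p ∣ r := mt (Nat.prime_dvd_prime_iff_eq hp.out hr.out).mp hpr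
  have h2 : (r : k) ≠ 0 := mt (CharP.cast_eq_zero_iff k p r).mp h1
  obtain ⟨η, h3, h4⟩ := exists_eta h2
  refine ⟨η, h2, h3, h4, fun x hx => ?_, fun x Y hx hY => ?_⟩ <;>
    obtain ⟨n, hn⟩ := h.tor r η h4 h1 x hx
  · exact ⟨_, hn⟩
  · rw [hY.unique h3 hn, Multiset.map_map]
    exact hQ n

omit [Finite H] [IsAlgClosed k] [CharP k p] hp in
theorem eq_one {η : AddChar (ZMod r) k} {x : H} {Y : Multiset (ZMod r)} (hY : Diag η (ρ x) Y)
    (e : Y.count 0 = Fintype.card ι) : x = 1 :=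
  h.inj (by rw [hY.eq_smul (e.trans (finrank_fintype_fun_eq_card k).symm)]; simp)

theorem central_bd (hpr : p ≠ r) (he : ¬ r ∣ e) {v : ℕ} (hw : ¬ r ^ (v + 1) ∣ w)
    (h1 : l + v < Fintype.card Ω - 2) (h2 : Fintype.card ι ^ 2 < r ^ (Fintype.card Ω - 2)) (x : H)
    (hx : π x = 1) (j : ℕ) (hj : x ^ r ^ j = 1) : x ∈ center H :=
  h.min.central (mt (CharP.cast_eq_zero_iff k p r).mp
    (mt (Nat.prime_dvd_prime_iff_eq hp.out hr.out).mp hpr)) h.inj (fun A _ hA =>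
      (h.bd r v hr.out hpr he hw A hA).trans_lt (Nat.pow_lt_pow_right hr.out.one_lt h1))
    (by rwa [finrank_fintype_fun_eq_card]) hx hj

open scoped IsMulCommutative in
theorem central_two (hp2 : p ≠ 2) {S : List ℕ} (hQ : Chk wt 2 (ratQ 2 (Fintype.card ι) S))
    {a b : ℤ} (hS : ∀ c ∈ S, c = Fintype.card ι ∨ 2 * c - Fintype.card ι = a ∨
      2 * c - Fintype.card ι = b) (h0 : 0 < (Fintype.card ι - a) * (Fintype.card ι - b))
    (h1 : (Fintype.card ι - a) * (Fintype.card ι - b) < 2 ^ (Fintype.card Ω - 2))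
    (h2 : Fintype.card ι ^ 2 < 2 ^ (Fintype.card Ω - 2)) (x : H)
    (hx : π x = 1) (j : ℕ) (hj : x ^ 2 ^ j = 1) : x ∈ center H := by
  obtain ⟨η, hη⟩ := h.spec hp2 hQ
  refine h.min.central hη.ne h.inj (fun A hA hA' => ?_) (by rwa [finrank_fintype_fun_eq_card]) hx hj
  have : IsMulCommutative A := ⟨⟨fun a b => Subtype.ext (hA _ a.2 _ b.2)⟩⟩
  have := Fintype.ofFinite A
  obtain ⟨ι', _, B, u, hu⟩ := exists_basis hη.ne hη.inj hη.surj (ρ.comp A.subtype)
    fun a => Subtype.ext (hA' _ a.2)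
  have h3 := dvd_of_two u (a := a) (b := b) fun z hz => by
    have hY : Diag η (ρ z) _ := .intro (hu z)
    have h3 : Rat (Finset.univ.val.map fun i => (u i z).toAdd) := fun j hj =>
      congrArg (Multiset.count · _) (by revert j; decide)
    obtain ⟨c, h4, h5⟩ := tr_of_rat h3
    rw [← tr_map, h5]
    rw [hY.card'] at h4
    refine ((hS _ (ratQ_spec hY.card' (hη.chk _ _ (hA' _ z.2) hY) h3)).resolve_left fun e =>
      hz (Subtype.ext (h.eq_one hY e))).imp (fun e => congrArg _ ?_) fun e => congrArg _ ?_ <;>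
      omega
  rw [← finrank_eq_card_basis B, finrank_fintype_fun_eq_card] at h3
  exact_mod_cast (Int.le_of_dvd h0 h3).trans_lt h1

open scoped IsMulCommutative in
theorem central_three (hp3 : p ≠ 3) (hN : Fintype.card ι = 27) (hQ : Chk wt 3
    [27, 27 * 512, 27 * 512 ^ 2, 15 + 6 * 512 + 6 * 512 ^ 2, 6 + 15 * 512 + 6 * 512 ^ 2,
      6 + 6 * 512 + 15 * 512 ^ 2, 9 + 9 * 512 + 9 * 512 ^ 2].contains) (h1 : Fintype.card Ω = 12)
    (x : H) (hx : π x = 1) (j : ℕ) (hj : x ^ 3 ^ j = 1) : x ∈ center H := by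
  classical
  obtain ⟨η, hη⟩ := h.spec hp3 hQ
  refine h.min.central hη.ne h.inj (fun A hA hA' => ?_)
    (by rw [finrank_fintype_fun_eq_card, hN, h1]; norm_num) hx hj
  have : IsMulCommutative A := ⟨⟨fun a b => Subtype.ext (hA _ a.2 _ b.2)⟩⟩
  have := Fintype.ofFinite A
  obtain ⟨ι', _, B, u, hu⟩ := exists_basis hη.ne hη.inj hη.surj (ρ.comp A.subtype)
    fun a => Subtype.ext (hA' _ a.2)
  have hY : ∀ z : A, Diag η (ρ z) _ := fun z => .intro (hu z)
  have h3 := dvd_of_three u (fun z => ∃ j, (Finset.univ.val.map fun i => (u i z).toAdd).count j = 27)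
    fun z => by
      obtain ⟨i, h3, h4⟩ := three_of_mem ((hY z).card'.trans hN)
        (List.contains_iff_mem.mp (hη.chk _ _ (hA' _ z.2) (hY z)))
      refine ⟨i, _, h4 _ rfl, ?_, ?_⟩
      · simpa [tr_map] using tr_shift h3 one_ne_zero
      · simpa [Multiset.map_map, tr_map] using tr_shift h3 (c := -1) (by decide)
  have h4 : (Finset.univ.filter fun z : A =>
      ∃ j, (Finset.univ.val.map fun i => (u i z).toAdd).count j = 27).card ≤ 3 := by
    choose! f hf using fun (z : A)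
      (hz : ∃ j, (Finset.univ.val.map fun i => (u i z).toAdd).count j = 27) => hz
    refine (Finset.card_le_card_of_injOn f (t := Finset.univ) (fun _ _ => Finset.mem_univ _)
      fun z hz z' hz' e => Subtype.ext (h.inj ?_)).trans_eq (ZMod.card 3)
    have h5 : 27 = finrank k (ι → k) := by rw [finrank_fintype_fun_eq_card, hN]
    rw [(hY z).eq_smul ((hf z (Finset.mem_filter.mp hz).2).trans h5),
      (hY z').eq_smul ((hf z' (Finset.mem_filter.mp hz').2).trans h5), e]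
  have h5 := Int.le_of_dvd (Int.mul_pos (by norm_num) (Int.natCast_pos.mpr (Finset.card_pos.mpr
    ⟨1, Finset.mem_filter.mpr ⟨Finset.mem_univ _, 0, by
      rw [← hN, ← (hY 1).card']; simp⟩⟩))) h3
  rw [h1]
  omega

variable (hc : (Nat.card π.ker).Coprime r)
  (ho : ∀ σ : Perm Ω, σ ^ r = 1 → ∃ c, Perm.sign c = -1 ∧ Commute c σ)
  {η : AddChar (ZMod r) k} {S : List ℕ} (hη : Spec ρ η (ratQ r (Fintype.card ι) S))
include hc ho hη

omit [IsAlgClosed k] [CharP k p] hp in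
theorem diag_of_supp {x y : H} (hx : x ^ r = 1) (hy : y ^ r = 1)
    (e : (π x : Perm Ω).support.card = (π y : Perm Ω).support.card) {Y Y' : Multiset (ZMod r)}
    (hY : Diag η (ρ x) Y) (hY' : Diag η (ρ y) Y') : Y = Y' := by
  obtain ⟨g, rfl⟩ := h.min.conj_supp hc hx hy e (ho _ (by rw [← coe_pow, ← map_pow, hy]; simp))
  exact (hY.conj g).unique hη.inj hY'

omit [IsAlgClosed k] [CharP k p] hp in
theorem rat {x : H} (hx : x ^ r = 1) {Y : Multiset (ZMod r)} (hY : Diag η (ρ x) Y) :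
    Rat Y ∧ Y.count 0 ∈ S := by
  have : Rat Y := count_of_map fun c hc' => by
    have h1 := hY.pow c.val
    rw [← map_pow, ZMod.natCast_zmod_val] at h1
    refine h.diag_of_supp hc ho hη (by rw [← pow_mul, mul_comm, pow_mul, hx, one_pow]) hx ?_ h1 hY
    rw [map_pow, coe_pow, Perm.support_pow_coprime (n := c.val) (Nat.Coprime.coprime_dvd_right
      (orderOf_dvd_of_pow_eq_one (by rw [← coe_pow, ← map_pow, hx]; simp))
      (ZMod.val_coe_unit_coprime (Units.mk0 c hc')))]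
  exact ⟨this, ratQ_spec hY.card' (hη.chk _ _ hx hY) this⟩

omit [IsAlgClosed k] [CharP k p] hp in
theorem exists_tau {T : List ℤ} {t : ℤ} (ht : t ∈ T) (hT : ∀ c ∈ S, c ≠ Fintype.card ι →
    ∀ c' : ℕ, (Fintype.card ι : ℤ) = c + (r - 1) * c' → (c - c' : ℤ) ∈ T) :
    ∃ τ : ℕ → ℤ, τ 0 = Fintype.card ι ∧ (∀ m, τ (m + 1) ∈ T) ∧ ∀ x Y, x ^ r = 1 → Diag η (ρ x) Y →
      tr Y = τ ((π x : Perm Ω).support.card / r) := by
  have key : ∀ m, ∃ t : ℤ, (m = 0 → t = Fintype.card ι) ∧ (m ≠ 0 → t ∈ T) ∧ ∀ x Y, x ^ r = 1 →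
      Diag η (ρ x) Y → (π x : Perm Ω).support.card = r * m → tr Y = t := fun m => by
    rcases eq_or_ne m 0 with rfl | hm
    · refine ⟨_, fun _ => rfl, fun e => absurd rfl e, fun x Y hx hY e => ?_⟩
      have h1 : π x = 1 := Subtype.ext (Perm.card_support_eq_zero.mp e)
      obtain rfl : x = 1 := (pow_eq_one_iff_of_coprime hc).mp
        ⟨congrArg Subtype.val (pow_card_eq_one' (x := (⟨x, h1⟩ : π.ker))), hx⟩
      rw [hY.unique hη.inj ⟨ι, _, Pi.basisFun k ι, 0, by simp, rfl⟩, tr_map]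
      simp
    by_cases h1 : ∃ x : H, x ^ r = 1 ∧ (π x : Perm Ω).support.card = r * m
    · obtain ⟨x, hx, e⟩ := h1
      obtain ⟨Y, hY⟩ := hη.ex x hx
      obtain ⟨h2, h3⟩ := h.rat hc ho hη hx hY
      obtain ⟨c, h4, h5⟩ := tr_of_rat h2
      refine ⟨_, fun e => absurd e hm, fun _ => hT _ h3 (fun e' => ?_) c (hY.card' ▸ h4),
        fun y Y' hy hY' e' => h.diag_of_supp hc ho hη hx hy (e.trans e'.symm) hY hY' ▸ h5⟩
      rw [h.eq_one hY e', map_one, coe_one, Perm.support_one, Finset.card_empty] at e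
      exact mul_ne_zero hr.out.ne_zero hm e.symm
    · exact ⟨t, fun e => absurd e hm, fun _ => ht, fun x _ hx _ e => absurd ⟨x, hx, e⟩ h1⟩
  choose τ h1 h2 h3 using key
  exact ⟨τ, h1 0 rfl, fun m => h2 _ m.succ_ne_zero, fun x Y hx hY => h3 _ x Y hx hY
    (Nat.mul_div_cancel' (dvd_supp (by rw [← coe_pow, ← map_pow, hx]; simp))).symm⟩

omit [CharP k p] hp ho in
theorem exists_weights {τ : ℕ → ℤ} (hτ : ∀ x Y, x ^ r = 1 → Diag η (ρ x) Y →
      tr Y = τ ((π x : Perm Ω).support.card / r)) {E : Type*} [CommGroup E] (hE : ∀ x : E, x ^ r = 1)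
    (j : E →* alternatingGroup Ω) : ∃ (φ : E →* H) (ι' : Type) (_ : Fintype ι')
      (b : Basis ι' k (ι → k)) (u : ι' → E →* Multiplicative (ZMod r)), (∀ x, π (φ x) = j x) ∧
      (∀ x a, ρ (φ x) (b a) = η (u a x).toAdd • b a) ∧
      ∀ x, ∑ a, ZMod.stdAddChar (u a x).toAdd = τ ((j x : Perm Ω).support.card / r) := by
  obtain ⟨φ, hφ⟩ := h.min.lift_hom hc (fun x => ⟨1, (pow_one r).symm ▸ hE x⟩) j
  obtain ⟨ι', _, b, u, hu⟩ := exists_basis hη.ne hη.inj hη.surj (ρ.comp φ) hE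
  exact ⟨φ, ι', _, b, u, hφ, hu, fun x => by
    rw [← tr_map, ← hφ, hτ _ _ (by rw [← map_pow, hE, map_one]) (.intro (hu x))]⟩

omit hc ho hη in
theorem no_rat (hpr : p ≠ r) (he : ¬ r ∣ e) (hw : ¬ r ∣ w) (hΩ : Fintype.card Ω = r + 2)
    (h1 : l < r) (h2 : Fintype.card ι ^ 2 < r ^ r) (h3 : 2 < r)
    (hQ : Chk wt r (ratQ r (Fintype.card ι) [Fintype.card ι])) : False := by
  obtain ⟨η, hη⟩ := h.spec hpr hQ
  have hc := h.min.coprime h3.ne' (h.central_bd hpr he (v := 0) (by simpa using hw)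
    (by rwa [hΩ]) (by rwa [hΩ]))
  have : Nontrivial Ω := Fintype.one_lt_card_iff_nontrivial.mp (by omega)
  obtain ⟨σ, hσ⟩ := exists_prime_orderOf_dvd_card' (G := alternatingGroup Ω) r
    (((Nat.coprime_primes hr.out Nat.prime_two).mpr h3.ne').dvd_of_dvd_mul_left (by
      rw [two_mul_nat_card_alternatingGroup, Nat.card_perm, Nat.card_eq_fintype_card]
      exact Nat.dvd_factorial hr.out.pos (by omega)))
  have h4 : ∀ z : zpowers σ, z ^ r = 1 := fun z => by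
    rw [← hσ, ← Nat.card_zpowers, pow_card_eq_one']
  obtain ⟨φ, hφ⟩ := h.min.lift_hom hc (fun z => ⟨1, (pow_one r).symm ▸ h4 z⟩) (zpowers σ).subtype
  have h5 : φ ⟨σ, mem_zpowers σ⟩ ^ r = 1 := by rw [← map_pow, h4, map_one]
  obtain ⟨Y, hY⟩ := hη.ex _ h5
  have h6 := hφ ⟨σ, mem_zpowers σ⟩
  rw [h.eq_one hY (List.mem_singleton.mp (h.rat hc (fun τ hτ => exists_odd_of_le ?_) hη h5 hY).2),
    map_one] at h6
  · rw [show σ = 1 from h6.symm, orderOf_one] at hσ
    omega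
  · obtain ⟨m, hm⟩ := dvd_supp hτ
    have := hm ▸ hΩ ▸ τ.support.card_le_univ
    rw [hm, hΩ]
    rcases m with _ | _ | m <;> nlinarith

omit h hc ho hη in
theorem exists_shift {s : ℕ} (h2 : r ≠ 2) {π : H →* alternatingGroup (Fin (s + 2) × ZMod r)}
    (h : Pack p l e w wt π ρ) (hpr : p ≠ r) (hc : (Nat.card π.ker).Coprime r)
    (hQ : Chk wt r (ratQ r (Fintype.card ι) S)) {T : List ℤ} {t : ℤ} (ht : t ∈ T)
    (hT : ∀ c ∈ S, c ≠ Fintype.card ι → ∀ c' : ℕ, (Fintype.card ι : ℤ) = c + (r - 1) * c' →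
      (c - c' : ℤ) ∈ T) : ∃ (η : AddChar (ZMod r) k) (τ : ℕ → ℤ)
      (φ : Multiplicative (Fin (s + 2) → ZMod r) →* H) (ι' : Type) (_ : Fintype ι')
      (b : Basis ι' k (ι → k)) (u : ι' → Multiplicative (Fin (s + 2) → ZMod r) →* Multiplicative _),
      Spec ρ η (ratQ r (Fintype.card ι) S) ∧ τ 0 = Fintype.card ι ∧ (∀ m, τ (m + 1) ∈ T) ∧
      (∀ x Y, x ^ r = 1 → Diag η (ρ x) Y → tr Y = τ ((π x).1.support.card / r)) ∧
      (∀ x, π (φ x) = shiftA _ h2 x) ∧ (∀ x a, ρ (φ x) (b a) = η (u a x).toAdd • b a) ∧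
      ∀ c : Fin (s + 2) → Option Bool, wsum (List.ofFn fun i => prF r (c i)) τ =
        (∏ i, if c i = none then 1 else (r : ℤ)) *
          Nat.card {a // ∀ i, okF (c i) (u a (.ofAdd (Pi.single i 1))).toAdd} := by
  obtain ⟨η, hη⟩ := h.spec hpr hQ
  obtain ⟨τ, h3, h4, h5⟩ := h.exists_tau hc (fun _ => exists_odd h2) hη ht hT
  obtain ⟨φ, ι', _, b, u, h6, h7, h8⟩ := h.exists_weights hc hη h5 pow_eq_one (shiftA _ h2)
  exact ⟨η, τ, φ, ι', inferInstance, b, u, hη, h3, h4, h5, h6, h7, count_weights u τ fun x => by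
    rw [h8, show (shiftA _ h2 (.ofAdd x)).1 = shiftP _ r (.ofAdd x) from rfl, supp_shiftP,
      Nat.mul_div_cancel_left _ hr.out.pos]⟩

omit h hc ho hη in
theorem spin_false {s : ℕ} {π : H →* alternatingGroup (Fin s × ZMod 3)} (h : Pack p l e w wt π ρ)
    (hc : ∀ s : ℕ, s.Prime → s ≠ p → ∀ x, π x = 1 → ∀ j, x ^ s ^ j = 1 → x ∈ center H)
    {η : AddChar (ZMod 3) k} {Q : ℕ → Bool} (hη : Spec ρ η Q)
    {φ : Multiplicative (Fin s → ZMod 3) →* H} {ι' : Type} [Fintype ι'] {b : Basis ι' k (ι → k)}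
    {u : ι' → Multiplicative (Fin s → ZMod 3) →* Multiplicative (ZMod 3)}
    (hφ : ∀ x, π (φ x) = shiftA _ (by decide) x) (hu : ∀ x a, ρ (φ x) (b a) = η (u a x).toAdd • b a)
    {m : ℕ} (hm : m + 3 ≤ s) (j : Fin (m + 2) ↪ Fin s) {N n : ℕ} (hN : N + 2 ≤ s * 3)
    {x y : Fin n → List (Fin (N + 1) × ℤ)} {z : List (Fin (N + 1) × ℤ)} {M : ℤ} (hP : PlOK x y z M)
    (hM : (M : k) ≠ 0) {P : ι' → Prop}
    (h0 : ∀ a, P a ↔ ∀ i : Fin (m + 1), (u a (.ofAdd (Pi.single (j i.succ) 1))).toAdd ≠ 0)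
    (h1 : ∀ a, P a → (u a (.ofAdd (Pi.single (j 0) 1))).toAdd ≠ 0) (h2 : 0 < Nat.card {a // P a})
    (h3 : Nat.card {a // P a} < 2 ^ n) : False := by
  classical
  let c : Fin (m + 2) → H := fun i => φ (.ofAdd (Pi.single (j i) 1))
  have h4 : ∀ i a, (u a (.ofAdd (Pi.single (j i) 1))).toAdd ≠ 0 → nrm ρ (c i) (b a) = 0 :=
    fun i a e => by
      simp only [nrm, c, LinearMap.add_apply, End.mul_apply, End.one_apply, hu, map_smul, smul_smul]
      generalize (u a (.ofAdd (Pi.single (j i) 1))).toAdd = v at e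
      have h4 : η v ^ 3 = 1 := by
        rw [← η.map_nsmul_eq_pow, show 3 • v = 0 by revert v; decide, η.map_zero_eq_one]
      have h5 : η v - 1 ≠ 0 := sub_ne_zero.mpr fun e' => e (hη.inj (e'.trans η.map_zero_eq_one.symm))
      rw [← one_smul k (b a), smul_smul, smul_smul, ← add_smul, ← add_smul, mul_left_cancel₀ h5
        (show (η v - 1) * (1 + η v * 1 + η v * η v * 1) = (η v - 1) * 0 by
          linear_combination h4), zero_smul]
  have h5 : ∀ (L : List (Fin (m + 2))) a, opX ρ (L.map c) (b a) =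
      (L.map fun i => η (u a (.ofAdd (Pi.single (j i) 1))).toAdd - 1).prod • b a := fun L a => by
    induction L with
    | nil => simp [opX]
    | cons i L ih =>
      rw [List.map_cons, opX, List.map_cons, List.prod_cons, End.mul_apply, ← opX, ih, map_smul,
        LinearMap.sub_apply, hu, List.map_cons, List.prod_cons, mul_comm, mul_smul, sub_smul,
        one_smul, End.one_apply]
  have h6 : (List.ofFn fun i : Fin (m + 1) => c i.succ) = (List.ofFn Fin.succ).map c := by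
    rw [List.map_ofFn]; rfl
  have h7 : ∀ a, ¬ P a → opX ρ (List.ofFn fun i : Fin (m + 1) => c i.succ) (b a) = 0 :=
    fun a ha => by
      obtain ⟨i, hi⟩ := not_forall.mp (mt (h0 a).mpr ha)
      rw [h6, h5, List.prod_eq_zero, zero_smul]
      exact List.mem_map.mpr ⟨i.succ, List.mem_ofFn.mpr ⟨i, rfl⟩, by simp [not_not.mp hi]⟩
  obtain ⟨a₀, ha₀⟩ := (Nat.card_pos_iff.mp h2).1
  refine h3.not_ge ((spin p h.min hc hη.ne (m := m) (by simp; omega)
    (T := fun i (x : ZMod 3) => (j i, x)) (fun i i' x x' e => ⟨j.injective (congrArg Prod.fst e),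
      congrArg Prod.snd e⟩) (a := c) (fun i => by rw [← map_pow, pow_eq_one, map_one]) (fun i => ?_)
    (fun i i' => (Commute.all _ _).map φ) (by simpa using hN) hP hM _ _ ρ rfl (b.ext fun a => ?_)
    (b a₀) (b.ne_zero _) fun i => h4 _ _ ((h0 _).mp ha₀ i)).trans ?_)
  · rw [hφ]
    exact shift_cyc (j i)
  · rw [End.mul_apply, LinearMap.zero_apply]
    by_cases ha : P a
    · rw [h6, h5, map_smul, h4 _ _ (h1 a ha), smul_zero]
    · rw [h7 a ha, map_zero]
  · rw [Nat.card_eq_fintype_card]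
    refine (Submodule.finrank_mono ?_).trans (finrank_range_le_card fun a : {a // P a} => b a)
    rw [LinearMap.range_eq_map, ← b.span_eq, Submodule.map_span_le]
    rintro _ ⟨a, rfl⟩
    by_cases ha : P a
    · rw [h6, h5]
      exact Submodule.smul_mem _ _ (Submodule.subset_span ⟨⟨a, ha⟩, rfl⟩)
    · rw [h7 a ha]; exact zero_mem _

end Pack

end Cfsg.Lib.Cor.AltE
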