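import Cfsg.Agent.Perm.WagFT
import Cfsg.Agent.Cor.AltSecPerm
import Cfsg.Agent.Chev.ToralT
import Cfsg.Agent.Solv.Cores
import Cfsg.Agent.Solv.PGroupBasic
import Cfsg.Agent.S0009
import Cfsg.Agent.Cor.AltELin

/-!
# Minimal covers of alternating groups inside linear groups (helper38)
-/

set_option autoImplicit false

namespace Cfsg.Lib.Cor.AltE

open Module Equiv Subgroup Cfsg.Lib.Perm.Wag

variable {Ω : Type*} [Fintype Ω] [DecidableEq Ω] {H : Type*} [Group H] [Finite H]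
  {π : H →* alternatingGroup Ω}

/-- A minimal cover of an alternating group. -/
structure MinCov (π : H →* alternatingGroup Ω) : Prop where
  nine : 9 ≤ Fintype.card Ω
  surj : Function.Surjective π
  min : ∀ K : Subgroup H, K.map π = ⊤ → K = ⊤

theorem exists_minCov (h9 : 9 ≤ Fintype.card Ω) (hπ : Function.Surjective π) :
    ∃ L : Subgroup H, MinCov (π.comp L.subtype) := by
  obtain ⟨L, h1, h2⟩ := WellFounded.has_min wellFounded_lt {L : Subgroup H | L.map π = ⊤}
    ⟨⊤, by rw [Set.mem_ofPred_eq, ← MonoidHom.range_eq_map, MonoidHom.range_eq_top.mpr hπ]⟩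
  refine ⟨L, h9, fun x => ?_, fun K hK => ?_⟩
  · obtain ⟨g, hg, rfl⟩ : x ∈ L.map π := h1 ▸ mem_top x
    exact ⟨⟨g, hg⟩, rfl⟩
  · rw [← map_map] at hK
    rw [← map_subtype_inj, ← MonoidHom.range_eq_map, range_subtype]
    exact (map_subtype_le K).eq_of_not_lt (h2 _ hK)

namespace MinCov

variable (h : MinCov π)
include h

omit [Finite H] in
theorem le_ker (K : Subgroup H) (hK : K.Normal) : K ≤ π.ker ∨ K = ⊤ :=
  have := alternatingGroup.isSimpleGroup (α := Ω) (by have := h.nine; simp; omega)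
  (hK.map π h.surj).eq_bot_or_eq_top.imp (map_eq_bot_iff K).mp (h.min K)

omit [Finite H] in
theorem perfect : Group.IsPerfect H := ⟨h.min _ (by
  rw [map_commutator_eq, MonoidHom.range_eq_top.mpr h.surj]
  exact commutator_alternatingGroup_eq_top (by have := h.nine; simp; omega))⟩

theorem nilpotent : Group.IsNilpotent π.ker := by
  have hF : π.ker ≤ frattini H := by
    rw [frattini, Order.radical]
    refine le_iInf₂ fun K hK => ?_
    by_contra h'
    refine hK.1 (h.min K ?_)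
    rw [← sup_bot_eq (K.map π), ← (map_eq_bot_iff π.ker).mpr le_rfl, ← Subgroup.map_sup,
      hK.2 _ (left_lt_sup.mpr h'), ← MonoidHom.range_eq_map, MonoidHom.range_eq_top.mpr h.surj]
  have := frattini_nilpotent (G := H)
  exact Group.nilpotent_of_mulEquiv (subgroupOfEquivOfLe hF)

theorem exists_sylow (s : ℕ) [Fact s.Prime] : ∃ P : Subgroup H, P.Normal ∧ IsPGroup s P ∧
    P ≤ π.ker ∧ ∀ x, π x = 1 → ∀ j, x ^ s ^ j = 1 → x ∈ P := by
  have := h.nilpotent
  obtain ⟨S⟩ : Nonempty (Sylow s π.ker) := inferInstance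
  have := S.characteristic_of_normal inferInstance
  refine ⟨(S : Subgroup π.ker).map π.ker.subtype, inferInstance, S.isPGroup'.map _,
    map_subtype_le _, fun x hx j hj => ⟨⟨x, hx⟩, ?_, rfl⟩⟩
  exact (S.is_maximal' ((Cfsg.Lib.Cor.Alt.isPGroup_zpowers (x := (⟨x, hx⟩ : π.ker))
    (Subtype.ext hj)).to_sup_of_normal_right S.isPGroup') le_sup_right).le
      (mem_sup_left (mem_zpowers _))

omit h in
theorem ker_le (N : Subgroup H)
    (hN : ∀ s : ℕ, s.Prime → ∀ x, π x = 1 → ∀ j, x ^ s ^ j = 1 → x ∈ N) : π.ker ≤ N := by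
  rw [← subgroupOf_eq_top]
  refine Cfsg.Agent.S0009.eq_top_of_forall_sylow_le _ fun s hs => ?_
  have := Fact.mk hs
  obtain ⟨S⟩ : Nonempty (Sylow s π.ker) := inferInstance
  refine ⟨S, fun x hx => ?_⟩
  obtain ⟨j, hj⟩ := S.isPGroup' ⟨x, hx⟩
  exact hN s hs x x.2 j (congrArg (fun y : S => ((y : π.ker) : H)) hj)

theorem card_le (s : ℕ) [Fact s.Prime] {M : Type*} [CommGroup M] [Finite M]
    (hM : ∀ x : M, x ^ s = 1) (ψ : H →* MulAut M) (hc : ∀ n, π n = 1 → ψ n = 1)
    (hψ : ψ.ker ≠ ⊤) : s ^ (Fintype.card Ω - 2) ≤ Nat.card M :=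
  have := h.perfect
  central_aut s h.nine (π := (Fintype.equivFin Ω).altCongrHom.toMonoidHom.comp π)
    ((Fintype.equivFin Ω).altCongrHom.surjective.comp h.surj) hM ψ
    (fun n hn => hc n ((map_eq_one_iff _ (Fintype.equivFin Ω).altCongrHom.injective).mp hn))
    fun _ hg => (map_eq_one_iff _ (Fintype.equivFin Ω).altCongrHom.injective).mpr
      ((h.le_ker ψ.ker inferInstance).resolve_right hψ hg)

variable {k : Type*} [Field k] [IsAlgClosed k] {V : Type*} [AddCommGroup V] [Module k V]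
  [FiniteDimensional k V]

omit h in
theorem card_le_sq {ρ : H →* End k V} (hρ : Function.Injective ρ) {B : Subgroup H} [hB : B.Normal]
    (hc : (Nat.card B : k) ≠ 0) (h1 : ∀ C : Subgroup H, C.Normal → C < B → C ≤ center H)
    (h2 : ∀ a ∈ B, ∀ b ∈ B, a * b * a⁻¹ * b⁻¹ ∈ center H) {a b : H} (ha : a ∈ B) (hb : b ∈ B)
    (hab : a * b ≠ b * a) :
    Nat.card (B.map (QuotientGroup.mk' (center H))) ≤ finrank k V ^ 2 := by
  classical
  have hz : a * b * a⁻¹ * b⁻¹ ∈ center H ⊓ B :=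
    ⟨h2 a ha b hb, B.mul_mem (B.mul_mem (B.mul_mem ha hb) (B.inv_mem ha)) (B.inv_mem hb)⟩
  have hcom : ∀ z ∈ center H, ∀ g, ρ g * ρ z = ρ z * ρ g := fun z hz g => by
    rw [← map_mul, mem_center_iff.mp hz g, map_mul]
  obtain ⟨v, ⟨u, rfl⟩, hv, χ, hχ⟩ := exists_joint (fun z : ↥(center H ⊓ B) => ρ z)
    (fun x y => hcom _ y.2.1 _) (U := LinearMap.range (ρ (a * b * a⁻¹ * b⁻¹) - 1))
    (fun e => hab (by
      have := hρ ((sub_eq_zero.mp (LinearMap.range_eq_bot.mp e)).trans ρ.map_one.symm)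
      rwa [mul_inv_eq_one, mul_inv_eq_iff_eq_mul] at this)) (by
      rintro z _ ⟨u, rfl⟩
      exact ⟨ρ z u, by rw [← End.mul_apply, ← End.mul_apply, mul_sub, sub_mul, hcom _ z.2.1,
        mul_one, one_mul]⟩)
  have hχ1 : χ ⟨_, hz⟩ ≠ 1 := fun e => hv (eq_zero_of_fixed hc (by
    rw [← map_pow, show _ ^ _ = (1 : H) from congrArg Subtype.val
      (pow_card_eq_one' (x := (⟨_, hz.2⟩ : B))), map_one]) (by
    simpa [e] using hχ ⟨_, hz⟩))
  let U : Submodule k V := ⨅ z : ↥(center H ⊓ B), (ρ z).eigenspace (χ z)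
  have hU : ∀ w, w ∈ U ↔ ∀ z : ↥(center H ⊓ B), ρ z w = χ z • w := fun w => by
    simp only [U, Submodule.mem_iInf, End.mem_eigenspace_iff]
  let σ := Representation.subrepresentation ρ U fun g w hw => (hU _).mpr fun z => by
    rw [← End.mul_apply, ← hcom _ z.2.1, End.mul_apply, (hU w).mp hw, map_smul]
  have hσ : ∀ z : ↥(center H ⊓ B), σ z = χ z • 1 := fun z =>
    LinearMap.ext fun w => Subtype.ext ((hU _).mp w.2 z)
  have : Nontrivial U := ⟨⟨_, (hU _).mpr hχ⟩, 0, fun e => hv (congrArg Subtype.val e)⟩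
  let R : Subgroup H :=
    { carrier := {x | x ∈ B ∧ ∀ y ∈ B, Commute (σ x) (σ y)}
      one_mem' := ⟨one_mem _, fun _ _ => by simp⟩
      mul_mem' := fun hx hy => ⟨mul_mem hx.1 hy.1, fun z hz => by
        rw [map_mul]; exact (hx.2 z hz).mul_left (hy.2 z hz)⟩
      inv_mem' := fun {x} hx => ⟨inv_mem hx.1, fun z hz =>
        (Commute.units_inv_left (u := σ.toHomUnits x) (hx.2 z hz)).eq⟩ }
  have hR : R ≤ center H := h1 R ⟨fun x hx g => ⟨hB.conj_mem x hx.1 g, fun y hy => by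
      have := (hx.2 _ (hB.conj_mem y hy g⁻¹)).eq
      rw [← map_mul, ← map_mul] at this
      rw [Commute, SemiconjBy, ← map_mul, ← map_mul,
        show g * x * g⁻¹ * y = g * (x * (g⁻¹ * y * g⁻¹⁻¹)) * g⁻¹ by group,
        show y * (g * x * g⁻¹) = g * (g⁻¹ * y * g⁻¹⁻¹ * x) * g⁻¹ by group,
        map_mul σ (g * _), map_mul σ g, this, ← map_mul, ← map_mul]⟩⟩
    (lt_of_le_of_ne (fun _ hx => hx.1) fun e => hχ1 (smul_left_injective k (one_ne_zero
      (α := End k U)) (by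
        have := ((e ▸ ha : a ∈ R).2 b hb).eq
        beta_reduce
        rw [← hσ, one_smul, map_mul, map_mul, map_mul, this, ← map_mul, ← map_mul, ← map_mul]
        simp)))
  choose l hl hl' using fun q : B.map (QuotientGroup.mk' (center H)) => mem_map.mp q.2
  have hm : ∀ (m : B) q, (m : H) * l q * (m : H)⁻¹ * (l q)⁻¹ ∈ center H ⊓ B := fun m q =>
    ⟨h2 _ m.2 _ (hl q),
      B.mul_mem (B.mul_mem (B.mul_mem m.2 (hl q)) (B.inv_mem m.2)) (B.inv_mem (hl q))⟩
  have key : ∀ (m : B) q, σ m * σ (l q) * σ (m : H)⁻¹ = χ ⟨_, hm m q⟩ • σ (l q) := fun m q => by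
    rw [← one_mul (σ (l q)), ← smul_mul_assoc, ← hσ, one_mul, ← map_mul, ← map_mul, ← map_mul,
      inv_mul_cancel_right]
  have h3 := card_le_of_weights (k := k) (V := End k U)
    (fun m : B => LinearMap.mulLeftRight k (σ m, σ (m : H)⁻¹)) (fun q => σ (l q))
    (fun q m => χ ⟨_, hm m q⟩) (fun q => (σ.toHomUnits (l q)).ne_zero)
    (fun q m => key m q) fun q q' e => Subtype.ext (by
      rw [← hl' q, ← hl' q']
      refine QuotientGroup.eq.mpr (hR ⟨mul_mem (inv_mem (hl q)) (hl q'), fun y hy => ?_⟩)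
      have h4 := (hσ _).trans ((congrArg (· • (1 : End k U)) (congrFun e ⟨y⁻¹, inv_mem hy⟩)).trans
        (hσ _).symm)
      rw [Commute, SemiconjBy, ← map_mul, ← map_mul,
        show (l q)⁻¹ * l q' * y = (l q)⁻¹ * y * (y⁻¹ * l q' * y⁻¹⁻¹ * (l q')⁻¹) * l q' by group,
        map_mul, map_mul σ (_ * y)]
      erw [← h4]
      rw [← map_mul, ← map_mul]
      congr 1
      group)
  rw [finrank_linearMap, ← sq] at h3
  exact h3.trans (Nat.pow_le_pow_left U.finrank_le 2)

open scoped IsMulCommutative in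
/-- The `s`-elements of the kernel are central if the `s`-rank and the dimension are small. -/
theorem central {s : ℕ} [hs : Fact s.Prime] (hk : (s : k) ≠ 0) {ρ : H →* End k V}
    (hρ : Function.Injective ρ) (h1 : ∀ A : Subgroup H, (∀ a ∈ A, ∀ b ∈ A, a * b = b * a) →
      (∀ a ∈ A, a ^ s = 1) → Nat.card A < s ^ (Fintype.card Ω - 2))
    (h2 : finrank k V ^ 2 < s ^ (Fintype.card Ω - 2)) {x : H} (hx : π x = 1) {j : ℕ}
    (hj : x ^ s ^ j = 1) : x ∈ center H := by
  by_contra hx'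
  have := h.perfect
  obtain ⟨P, hP, hP1, hP2, hP3⟩ := h.exists_sylow s
  obtain ⟨B, ⟨hB, hB1, hB2⟩, hB3⟩ := WellFounded.has_min wellFounded_lt
    {B : Subgroup H | B.Normal ∧ B ≤ P ∧ ¬ B ≤ center H} ⟨P, hP, le_rfl, fun e => hx' (e (hP3 x hx j hj))⟩
  have hmin : ∀ C : Subgroup H, C.Normal → C < B → C ≤ center H := fun C hC hlt => by
    by_contra e
    exact hB3 C ⟨hC, hlt.le.trans hB1, e⟩ hlt
  have hBK : ∀ a ∈ B, ∀ n, π n = 1 → a * n * a⁻¹ * n⁻¹ ∈ center H := fun a ha n hn =>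
    hmin _ inferInstance (Cfsg.Lib.Solv.PG.commutator_lt_of_isNilpotent h.nilpotent (hB1.trans hP2)
      le_normalizer_of_normal fun e => hB2 (e ▸ bot_le)) (commutator_mem_commutator ha hn)
  let φ := QuotientGroup.mk' (center H)
  have hφ : Function.Surjective φ := QuotientGroup.mk'_surjective _
  have hφ' : ∀ a, φ a = 1 ↔ a ∈ center H := fun a => QuotientGroup.eq_one_iff a
  have hM : (B.map φ).Normal := hB.map φ hφ
  have hc : ∀ a ∈ B, ∀ n, π n = 1 → Commute (φ a) (φ n) := fun a ha n hn => by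
    have := (hφ' _).mpr (hBK a ha n hn)
    rwa [map_mul, map_mul, map_mul, map_inv, map_inv, mul_inv_eq_one, mul_inv_eq_iff_eq_mul] at this
  have : IsMulCommutative (B.map φ) := ⟨⟨by
    rintro ⟨_, a, ha, rfl⟩ ⟨_, b, hb, rfl⟩
    exact Subtype.ext (hc a ha b (hP2 (hB1 hb)))⟩⟩
  have hnc : ¬ ∀ a ∈ B, ∀ g, g * a * g⁻¹ * a⁻¹ ∈ center H := fun e => hB2 fun a ha => by
    rw [← hφ', ← mem_bot, ← Group.IsPerfect.center_quotient_center_eq_bot, mem_center_iff]
    intro g
    obtain ⟨g, rfl⟩ := hφ g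
    have := (hφ' _).mpr (e a ha g)
    rwa [map_mul, map_mul, map_mul, map_inv, map_inv, mul_inv_eq_one, mul_inv_eq_iff_eq_mul] at this
  have hexp : ∀ a ∈ B, φ a ^ s = 1 := by
    let C : Subgroup H :=
      { carrier := {a | a ∈ B ∧ φ a ^ s = 1}
        one_mem' := ⟨one_mem _, by simp⟩
        mul_mem' := fun {a b} ha hb => ⟨mul_mem ha.1 hb.1, by
          rw [map_mul, (hc a ha.1 b (hP2 (hB1 hb.1))).mul_pow, ha.2, hb.2, one_mul]⟩
        inv_mem' := fun ha => ⟨inv_mem ha.1, by rw [map_inv, inv_pow, ha.2, inv_one]⟩ }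
    have : Nontrivial (B.map φ) := (nontrivial_iff_ne_bot _).mpr fun e => hB2 (by
      rwa [Subgroup.map_eq_bot_iff, QuotientGroup.ker_mk'] at e)
    obtain ⟨m, hm, hm'⟩ := ((hP1.to_le hB1).map φ).nontrivial_iff_card.mp this
    obtain ⟨⟨_, a, ha, rfl⟩, ha'⟩ := exists_prime_orderOf_dvd_card' s (hm' ▸ dvd_pow_self s hm.ne')
    rw [← orderOf_coe] at ha'
    by_contra e
    refine hs.out.one_lt.ne' (ha'.symm.trans (orderOf_eq_one_iff.mpr ((hφ' a).mpr (hmin C
      ⟨fun b hb g => ⟨hB.conj_mem b hb.1 g, by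
        rw [map_mul, map_mul, map_inv, conj_pow, hb.2, mul_one, mul_inv_cancel]⟩⟩
      (lt_of_le_of_ne (fun _ hb => hb.1) fun e' => e fun b hb => (e' ▸ hb : b ∈ C).2)
      ⟨ha, ha' ▸ pow_orderOf_eq_one _⟩))))
  have h3 := h.card_le s (M := B.map φ) (by
      rintro ⟨_, a, ha, rfl⟩
      exact Subtype.ext (hexp a ha)) ((MulAut.conjNormal (H := B.map φ)).comp φ)
    (fun n hn => MulEquiv.ext (by
      rintro ⟨_, a, ha, rfl⟩
      exact Subtype.ext (mul_inv_eq_iff_eq_mul.mpr (hc a ha n hn).eq.symm)))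
    fun e => hnc fun a ha g => by
      rw [← hφ', map_mul, map_mul, map_mul, map_inv, map_inv, mul_inv_eq_one]
      exact congrArg Subtype.val (MulEquiv.congr_fun (e ▸ mem_top g :
        g ∈ ((MulAut.conjNormal (H := B.map φ)).comp φ).ker) ⟨_, a, ha, rfl⟩)
  by_cases hab : ∀ a ∈ B, ∀ b ∈ B, a * b = b * a
  · let A : Subgroup H :=
      { carrier := {a | a ∈ B ∧ a ^ s = 1}
        one_mem' := ⟨one_mem _, by simp⟩
        mul_mem' := fun {a b} ha hb => ⟨mul_mem ha.1 hb.1, by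
          rw [Commute.mul_pow (hab a ha.1 b hb.1), ha.2, hb.2, one_mul]⟩
        inv_mem' := fun ha => ⟨inv_mem ha.1, by rw [inv_pow, ha.2, inv_one]⟩ }
    refine (h3.trans (Nat.card_le_card_of_surjective _ (φ.subgroupMap_surjective B))).not_gt
      (h1 B hab ?_)
    by_contra e
    refine hnc fun a ha g => hmin A ⟨fun b hb g => ⟨hB.conj_mem b hb.1 g, by
      rw [conj_pow, hb.2, mul_one, mul_inv_cancel]⟩⟩ (lt_of_le_of_ne (fun _ hb => hb.1)
        fun e' => e fun b hb => (e' ▸ hb : b ∈ A).2)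
      ⟨mul_mem (hB.conj_mem a ha g) (inv_mem ha), ?_⟩
    rw [Commute.mul_pow (hab _ (hB.conj_mem a ha g) _ (inv_mem ha)), conj_pow,
      mem_center_iff.mp ((hφ' _).mp ((map_pow φ a s).trans (hexp a ha))) g, mul_inv_cancel_right,
      inv_pow, mul_inv_cancel]
  · push Not at hab
    obtain ⟨a, ha, b, hb, hab⟩ := hab
    obtain ⟨m, hm⟩ := (hP1.to_le hB1).exists_card_eq
    exact (h3.trans (card_le_sq hρ (by rw [hm, Nat.cast_pow]; exact pow_ne_zero _ hk) hmin
      (fun a ha b hb => hBK a ha b (hP2 (hB1 hb))) ha hb hab)).not_gt h2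

omit [Finite H] in
theorem card_ker_le {Γ : Type*} [Group Γ] {φ : H →* Γ} (hφ : Function.Surjective φ)
    {σ : Γ →* alternatingGroup Ω} (e : σ.comp φ = π) (hc : ∀ x, π x = 1 → φ x ∈ center Γ) :
    Function.Surjective σ ∧ σ.ker ≤ center Γ ∧ Nat.card σ.ker ≤ 2 := by
  have h1 : Function.Surjective σ := Function.Surjective.of_comp (g := φ) (e ▸ h.surj :
    Function.Surjective (σ.comp φ))
  have h2 : σ.ker ≤ center Γ := fun x hx => by
    obtain ⟨x, rfl⟩ := hφ x
    exact hc x (e ▸ hx)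
  have := h.perfect
  have : Group.IsPerfect Γ := .ofSurjective hφ
  have := h.nine
  exact ⟨h1, h2, AltSchur.card_ker_le_two h1 h2 (by simp) (by omega) (by omega) (by omega)⟩

theorem coprime {s : ℕ} [hs : Fact s.Prime] (h2 : s ≠ 2)
    (hc : ∀ x, π x = 1 → ∀ j, x ^ s ^ j = 1 → x ∈ center H) : (Nat.card π.ker).Coprime s := by
  rw [Nat.coprime_comm, hs.out.coprime_iff_not_dvd]
  intro hd
  have h3 := Cfsg.Lib.Solv.coprime_card_pPrimeCore s H
  rw [Nat.coprime_comm, hs.out.coprime_iff_not_dvd] at h3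
  have h4 := (h.le_ker (pPrimeCore s H) inferInstance).resolve_right fun e => h3 (by
    rw [e, card_top]; exact hd.trans π.ker.card_subgroup_dvd_card)
  obtain ⟨-, -, h5⟩ := h.card_ker_le (QuotientGroup.mk'_surjective (pPrimeCore s H))
    (σ := QuotientGroup.lift _ π h4) rfl (ker_le ((center _).comap (QuotientGroup.mk' _))
      fun t ht x hx j hj => by
        by_cases e : t = s
        · refine mem_center_iff.mpr fun g => ?_
          obtain ⟨g, rfl⟩ := QuotientGroup.mk'_surjective _ g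
          rw [← map_mul, mem_center_iff.mp (hc x hx j (e ▸ hj)) g, map_mul]
        · have := Fact.mk ht
          obtain ⟨P, hP, hP1, -, hP3⟩ := h.exists_sylow t
          obtain ⟨m, hm⟩ := hP1.exists_card_eq
          rw [mem_comap, QuotientGroup.mk'_apply, (QuotientGroup.eq_one_iff x).mpr
            (Cfsg.Lib.Solv.le_pPrimeCore hP (hm ▸ ((Nat.coprime_primes ht hs.out).mpr e).pow_left m)
              (hP3 x hx j hj))]
          exact one_mem _)
  obtain ⟨x, hx⟩ := exists_prime_orderOf_dvd_card' s hd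
  rw [← orderOf_coe] at hx
  have h6 : orderOf (⟨(x : H), x.2⟩ : (QuotientGroup.lift _ π h4).ker) = s :=
    orderOf_eq_prime (Subtype.ext (by
      rw [coe_pow, ← QuotientGroup.mk_pow, orderOf_dvd_iff_pow_eq_one.mp hx.dvd]; rfl))
      fun e => h3 (hx.symm.dvd.trans (Subgroup.orderOf_dvd_natCard _
        ((QuotientGroup.eq_one_iff (x : H)).mp (congrArg Subtype.val e :))))
  have := (Nat.le_of_dvd Nat.card_pos (h6 ▸ _root_.orderOf_dvd_natCard _)).trans h5
  have := hs.out.two_le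
  omega

theorem conj {s : ℕ} (hc : (Nat.card π.ker).Coprime s) {x y : H} (hx : x ^ s = 1) (hy : y ^ s = 1)
    {c : alternatingGroup Ω} (e : c * π x * c⁻¹ = π y) : ∃ g, g * x * g⁻¹ = y := by
  obtain ⟨g, rfl⟩ := h.surj c
  have := h.nilpotent
  obtain ⟨u, -, hu⟩ := Cfsg.Lib.Chev.exists_conj_eq_of_coprime (U := π.ker) inferInstance
    (b := g * x * g⁻¹) (t := y) (by rw [MonoidHom.mem_ker, map_mul, map_mul, map_mul, map_inv, e,
      map_inv, mul_inv_cancel]) (le_normalizer_of_normal (mem_top y))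
    (hc.coprime_dvd_right (orderOf_dvd_of_pow_eq_one (by rw [conj_pow, hx, mul_one, mul_inv_cancel])))
    (hc.coprime_dvd_right (orderOf_dvd_of_pow_eq_one hy))
  exact ⟨u * g, by rw [← hu]; group⟩

theorem lift_hom {s : ℕ} [Fact s.Prime] (hc : (Nat.card π.ker).Coprime s) {E : Type*} [Group E]
    (hE : IsPGroup s E) (j : E →* alternatingGroup Ω) : ∃ φ : E →* H, ∀ e, π (φ e) = j e := by
  obtain ⟨P, -, hP, hP', -⟩ := Cfsg.Lib.Cor.Alt.lift π (j.range.comap π)
    (hE.of_surjective _ j.rangeRestrict_surjective) (map_comap_eq_self_of_surjective h.surj _).ge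
    fun g hg => le_normalizer hg
  obtain ⟨m, hm⟩ := hP.exists_card_eq
  have h1 : ∀ a ∈ P, ∀ b ∈ P, π a = π b → a = b := fun a ha b hb e => by
    rw [← mul_inv_eq_one, ← mem_bot, ← (disjoint_of_coprime_natCard (hm ▸ hc.pow_right m)).eq_bot]
    exact ⟨by simp [e], P.mul_mem ha (P.inv_mem hb)⟩
  choose φ h2 h3 using fun e => mem_map.mp (hP' ▸ ⟨e, rfl⟩ : j e ∈ P.map π)
  exact ⟨MonoidHom.mk' φ fun a b => h1 _ (h2 _) _ (mul_mem (h2 _) (h2 _)) (by
    rw [map_mul, h3, h3, h3, map_mul]), h3⟩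

end MinCov

section perm

variable {r : ℕ} [hr : Fact r.Prime] {σ τ : Perm Ω}

theorem isConj_of_supp (hσ : σ ^ r = 1) (hτ : τ ^ r = 1) (e : σ.support.card = τ.support.card) :
    IsConj σ τ := by
  have h1 := Perm.cycleType_of_pow_prime_eq_one hσ
  have h2 := Perm.cycleType_of_pow_prime_eq_one hτ
  rw [← Perm.sum_cycleType, ← Perm.sum_cycleType, h1, h2, Multiset.sum_replicate,
    Multiset.sum_replicate, smul_eq_mul, smul_eq_mul] at e
  rw [Perm.isConj_iff_cycleType_eq, h1, h2, Nat.eq_of_mul_eq_mul_right hr.out.pos e]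

theorem dvd_supp (hσ : σ ^ r = 1) : r ∣ σ.support.card := by
  rw [← Perm.sum_cycleType, Perm.cycleType_of_pow_prime_eq_one hσ, Multiset.sum_replicate]
  exact Dvd.intro_left _ rfl

theorem exists_odd_of_le (h : τ.support.card + 2 ≤ Fintype.card Ω) :
    ∃ c, Perm.sign c = -1 ∧ Commute c τ := by
  obtain ⟨a, ha, b, hb, hab⟩ := Finset.one_lt_card.mp (show 1 < τ.supportᶜ.card by
    rw [Finset.card_compl]; omega)
  refine ⟨swap a b, Perm.sign_swap hab, Perm.Disjoint.commute ?_⟩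
  rw [Perm.disjoint_iff_disjoint_support, Perm.support_swap hab]
  simpa using And.intro ha hb

theorem MinCov.conj_supp (h : MinCov π) (hc : (Nat.card π.ker).Coprime r) {x y : H}
    (hx : x ^ r = 1) (hy : y ^ r = 1)
    (e : (π x : Perm Ω).support.card = (π y : Perm Ω).support.card)
    (ho : ∃ c, Perm.sign c = -1 ∧ Commute c (π y : Perm Ω)) : ∃ g, g * x * g⁻¹ = y := by
  obtain ⟨g, hg⟩ := isConj_iff.mp (isConj_of_supp (r := r)
    (by rw [← coe_pow, ← map_pow, hx, map_one, coe_one])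
    (by rw [← coe_pow, ← map_pow, hy, map_one, coe_one]) e)
  obtain ⟨c, h1, h2⟩ := ho
  rcases Int.units_eq_one_or (Perm.sign g) with h3 | h3
  · exact h.conj hc hx hy (c := ⟨g, h3⟩) (Subtype.ext hg)
  · refine h.conj hc hx hy (c := ⟨c * g, by simp [h1, h3]⟩) (Subtype.ext ?_)
    change c * g * _ * (c * g)⁻¹ = _
    rw [show c * g * (π x : Perm Ω) * (c * g)⁻¹ = c * (g * π x * g⁻¹) * c⁻¹ by group, hg, h2.eq,
      mul_inv_cancel_right]

/-- Translations of the blocks. -/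
def shiftP (s r : ℕ) : Multiplicative (Fin s → ZMod r) →* Perm (Fin s × ZMod r) :=
  MonoidHom.mk' (fun e => prodCongrRight fun i => Equiv.addRight (e.toAdd i)) fun a b => by
    ext ⟨i, x⟩ <;> simp [add_left_comm, add_comm]

theorem pow_eq_one {s : ℕ} (e : Multiplicative (Fin s → ZMod r)) : e ^ r = 1 :=
  Multiplicative.toAdd.injective (funext fun i => by simp)

theorem supp_shiftP {s : ℕ} (e : Fin s → ZMod r) :
    (shiftP s r (.ofAdd e)).support.card = r * supp e := by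
  rw [Perm.support, Finset.card_filter, Fintype.sum_prod_type, supp, Finset.mul_sum]
  refine Finset.sum_congr rfl fun i _ => ?_
  by_cases h : e i = 0 <;> simp [shiftP, h]

theorem exists_odd {s : ℕ} (h2 : r ≠ 2) {τ : Perm (Fin (s + 2) × ZMod r)} (hτ : τ ^ r = 1) :
    ∃ c, Perm.sign c = -1 ∧ Commute c τ := by
  by_cases h : τ.support.card + 2 ≤ Fintype.card (Fin (s + 2) × ZMod r)
  · exact exists_odd_of_le h
  obtain ⟨m, hm⟩ := dvd_supp hτ
  have h3 := τ.support.card_le_univ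
  have h4 := hr.out.two_le
  simp only [Fintype.card_prod, Fintype.card_fin, ZMod.card, hm] at h h3
  have h5 : m = s + 2 := by
    rcases lt_trichotomy m (s + 2) with e | e | e
    · exact absurd (by nlinarith) h
    · exact e
    · nlinarith
  obtain ⟨g, hg⟩ := isConj_iff.mp (isConj_of_supp (σ := shiftP (s + 2) r (.ofAdd 1))
    (by rw [← map_pow, pow_eq_one, map_one]) hτ (by rw [supp_shiftP, hm, h5]; simp [supp]))
  refine ⟨g * prodCongrLeft (fun _ => swap 0 1) * g⁻¹, ?_, ?_⟩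
  · simp [Perm.sign_prodCongrLeft, (hr.out.odd_of_ne_two h2).neg_one_pow]
  · rw [← hg]
    refine Commute.map (f := MulAut.conj g) ?_
    ext ⟨i, x⟩ <;> simp [shiftP]

/-- Translations of the blocks as even permutations. -/
def shiftA (s : ℕ) (h2 : r ≠ 2) :
    Multiplicative (Fin s → ZMod r) →* alternatingGroup (Fin s × ZMod r) :=
  (shiftP s r).codRestrict _ fun e => sign_of_odd (hr.out.odd_of_ne_two h2)
    (by rw [← map_pow, pow_eq_one, map_one])

end perm

end Cfsg.Lib.Cor.AltE
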