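import Cfsg.Agent.Cor.AltETab
import Cfsg.Agent.Cor.AltECl
import Cfsg.Agent.Cor.AltSecChev

/-!
# Minimal covers of alternating sections of Chevalley groups (helper38)
-/

set_option autoImplicit false

namespace Cfsg.Lib.Cor.AltE

open Module Subgroup Matrix Cfsg.Lie Cfsg.Lib.Chev Cfsg.Lib.Chev.Core Cfsg.Lib.Cor.Alt

universe u

theorem card_le_of_relIndex {G : Type*} [Group G] [Finite G] {T M A : Subgroup G} {s l v : ℕ}
    [hs : Fact s.Prime] (hA : A ≤ M) (h1 : ∀ a ∈ A, a ^ s = 1) (h2 : ¬ s ^ (v + 1) ∣ T.relIndex M)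
    (hT : ∀ B ≤ T, (∀ a ∈ B, a ^ s = 1) → Nat.card B ≤ s ^ l) : Nat.card A ≤ s ^ (l + v) := by
  have := Fintype.ofFinite (MulAction.orbitRel.Quotient (A.subgroupOf M) (M ⧸ T.subgroupOf M))
  rw [relIndex, index, Nat.card_congr (MulAction.selfEquivSigmaOrbitsQuotientStabilizer
    (A.subgroupOf M) _), Nat.card_sigma] at h2
  obtain ⟨ω, hω⟩ := not_forall.mp fun h => h2 (Finset.dvd_sum fun ω _ => h ω)
  obtain ⟨g, hg⟩ := QuotientGroup.mk_surjective ω.out
  obtain ⟨n, hn⟩ := IsPGroup.index (p := s) (G := A.subgroupOf M)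
    (fun a => ⟨1, Subtype.ext (Subtype.ext ((pow_one s).symm ▸ h1 _ a.2))⟩)
    (MulAction.stabilizer _ ω.out)
  rw [← index, hn] at hω
  let φ : A.subgroupOf M →* G :=
    (MulAut.conj (g : G)⁻¹).toMonoidHom.comp (M.subtype.comp (Subgroup.subtype _))
  have h3 := hT ((MulAction.stabilizer _ ω.out).map φ) (by
    rintro _ ⟨a, ha, rfl⟩
    have := QuotientGroup.eq.mp (hg.trans ((MulAction.mem_stabilizer_iff.mp ha).symm.trans
      (congrArg (a • ·) hg.symm)))
    simpa [φ, mem_subgroupOf, mul_assoc, Subgroup.smul_def] using this) (by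
    rintro _ ⟨a, -, rfl⟩
    rw [← map_pow, show a ^ s = 1 from Subtype.ext (Subtype.ext (h1 _ a.2)), map_one])
  rw [card_map_of_injective ((MulAut.conj _).injective.comp
    (Subtype.val_injective.comp Subtype.val_injective))] at h3
  rw [← Nat.card_congr (subgroupOfEquivOfLe hA).toEquiv,
    ← (MulAction.stabilizer _ ω.out).card_mul_index, hn, pow_add]
  exact Nat.mul_le_mul h3 (Nat.pow_le_pow_right hs.out.pos
    (Nat.le_of_lt_succ (not_le.mp (mt (pow_dvd_pow s) hω))))

variable {D : ChevalleyDatum} (C : Cert D) (R : RootData D)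

include C in
theorem card_le_chev {F : Type*} [Field F] [Finite F] {s v : ℕ} [hs : Fact s.Prime]
    (hc : (Nat.card F).Coprime s) (hW : ¬ s ^ (v + 1) ∣ Nat.card R.weyl.W)
    {A : Subgroup (GL D.Idx F)} (hA : A ≤ D.group F) (h1 : ∀ a ∈ A, a ^ s = 1) :
    Nat.card A ≤ s ^ (D.rank + v) := by
  have := NeZero.mk hs.out.ne_zero
  obtain ⟨K, _, _, f, hK⟩ := exists_ext F (Nat.totient (s ^ (v + 1)))
    (Nat.totient_pos.mpr (pow_pos hs.out.pos _)).ne'
  rw [← card_map_of_injective (K := A) (mapGL_injective f)]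
  refine card_le_of_relIndex (M := D.group K)
    (map_le_iff_le_comap.mpr fun g hg => mapGL_mem_group f (hA hg)) ?_
    (not_dvd_chev C R (hK ▸ Nat.ModEq.pow_totient (hc.pow_right _)) hW) fun B hB h2 => ?_
  · rintro _ ⟨a, ha, rfl⟩
    rw [← map_pow, h1 a ha, map_one]
  · choose c hc using fun b : B => C.hSub_le_range R (hB b.2)
    refine (Nat.card_le_card_of_injective (fun b i => (⟨c b i, congrFun (torGL_injective R (by
      rw [map_pow, hc, h2 _ b.2, map_one]) : c b ^ s = 1) i⟩ : rootsOfUnity s K))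
      fun b b' e => Subtype.ext ?_).trans ?_
    · rw [← hc, ← hc]
      exact congrArg _ (funext fun i => congrArg Subtype.val (congrFun e i))
    · rw [Nat.card_fun, Nat.card_eq_fintype_card (α := Fin _), Fintype.card_fin]
      exact Nat.pow_le_pow_left (card_rootsOfUnity K s) _

/-- A minimal cover of an alternating group inside a simply connected group. -/
structure Pack (p l e w : ℕ) {ι : Type} [Fintype ι] (wt : ι → Fin l → ℤ) {Ω : Type*} [Fintype Ω]
    [DecidableEq Ω] {H : Type*} [Group H] (π : H →* alternatingGroup Ω) {k : Type*} [Field k]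
    (ρ : H →* End k (ι → k)) : Prop where
  min : MinCov π
  inj : Function.Injective ρ
  tor : ∀ (r : ℕ) (η : AddChar (ZMod r) k), (∀ a, a ^ r = 1 → ∃ j, η j = a) → ¬ p ∣ r →
    ∀ x, x ^ r = 1 → ∃ n, Diag η (ρ x) (Finset.univ.val.map fun a => ((wt a ⬝ᵥ n : ℤ) : ZMod r))
  bd : ∀ s v : ℕ, s.Prime → p ≠ s → ¬ s ∣ e → ¬ s ^ (v + 1) ∣ w → ∀ A : Subgroup H,
    (∀ a ∈ A, a ^ s = 1) → Nat.card A ≤ s ^ (l + v)

include C in
theorem exists_pack {F : Type u} [Field F] [Finite F] (p : ℕ) [hp : Fact p.Prime] [CharP F p]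
    {k : Type u} [Field k] [IsAlgClosed k] [CharP k p] [Algebra F k] [Algebra.IsAlgebraic F k]
    {G : Type u} [Group G] {y : ℕ → k → G} (h : StRelN D y)
    (hy : closure {g | ∃ r t, r < D.nroots ∧ g = y r t} = ⊤) (θ : G →* D.group k)
    (hθ : ∀ r, r < D.nroots → ∀ t, θ (y r t) = xG D k r t) {d : List ℕ} (hd : CartanSNF D d)
    {e : ℕ} [NeZero e] (he : ∀ i, d.getD i 1 ∣ e) {ι : Type} [Fintype ι] [DecidableEq ι]
    (ρ : G →* GL ι k) (hρ : Function.Injective ρ) {wt : ι → Fin D.rank → ℤ}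
    (hwt : ∀ v, (ρ (h.hHom R v) : Matrix ι ι k) = diagonal fun a => (chr v (wt a) : kˣ).1)
    (hi : Function.Injective (h.hHom R)) {Ω : Type} [Fintype Ω] [DecidableEq Ω]
    (h9 : 9 ≤ Fintype.card Ω) (hS : Sec (D.group F) (alternatingGroup (Fin (Fintype.card Ω)))) :
    ∃ (H : Type u) (_ : Group H) (_ : Finite H) (π : H →* alternatingGroup Ω)
      (σ : H →* End k (ι → k)), Pack p D.rank e (Nat.card R.weyl.W) wt π σ := by
  obtain ⟨H, f, hH, hf⟩ := hS.comap (Z := alternatingGroup Ω) (Fintype.equivFin Ω).permCongrHom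
    (Fintype.equivFin Ω).permCongrHom.injective fun z hz =>
      (Equiv.Perm.sign_permCongr _ _).trans hz
  let θ' := (D.group k).subtype.comp θ
  have h1 : ∀ v, θ' (h.hHom R v) = torGL R k (cartanHom D kˣ v) := fun v =>
    (h.map_hHom (C.stRelN k R) R θ' (fun r hr t => congrArg Subtype.val (hθ r hr t)) v).trans
      (C.hHom_eq R v)
  have h2 : ∀ z, θ' z = 1 → ∃ v, v ^ e = 1 ∧ h.hHom R v = z := fun z hz => by
    obtain ⟨v, rfl⟩ : z ∈ (h.hHom R).range := h.range_hHom R ▸ (C.model k R).ker_le_hSub h.toStRel θ'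
      (fun r hr t => congrArg Subtype.val (hθ r hr t)) hy hz
    obtain ⟨φ⟩ := hd.nonempty_equiv kˣ
    obtain ⟨c, hc⟩ := φ.surjective ⟨v, torGL_injective R (by rw [← h1, hz, map_one])⟩
    refine ⟨v, ?_, rfl⟩
    rw [show v = φ c from congrArg Subtype.val hc.symm, ← coe_pow, ← map_pow,
      show c ^ e = 1 from funext fun i => Subtype.ext ?_, map_one, coe_one]
    obtain ⟨m, rfl⟩ := he i
    exact (pow_mul _ _ _).trans (by rw [show _ ^ _ = (1 : kˣ) from (c i).2, one_pow]; rfl)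
  have hk := C.hSub_eq_range (k := k) R ⟨d, hd, fun i => Nat.pos_of_dvd_of_pos (he i) (NeZero.pos e)⟩
  let P : Subgroup (G × H) := (θ'.comp (.fst _ _)).eqLocus
    ((mapGL D (algebraMap F k)).comp (H.subtype.comp (.snd _ _))) ⊓
      (alternatingGroup Ω).comap (f.comp (.snd _ _))
  have h3 : ∀ x : P, x.1.1 = 1 → x = 1 := fun x e => Subtype.ext (Prod.ext e (Subtype.ext
    (mapGL_injective (algebraMap F k) (x.2.1.symm.trans (by simp [e])))))
  have : Finite P := by
    refine ((MonoidHom.snd G H).comp P.subtype).finite_iff_finite_ker_range.mpr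
      ⟨?_, inferInstance⟩
    have h4 : ∀ x : ((MonoidHom.snd G H).comp P.subtype).ker, θ' x.1.1.1 = 1 := fun x =>
      x.1.2.1.trans (by simp [show x.1.1.2 = 1 from x.2])
    choose v hv hv' using fun x => h2 _ (h4 x)
    exact Finite.of_injective (fun x i => (⟨v x i, congrFun (hv x) i⟩ : rootsOfUnity e k))
      fun x x' e => Subtype.ext (Subtype.ext (Prod.ext (by
        rw [← hv', ← hv']
        exact congrArg _ (funext fun i => congrArg Subtype.val (congrFun e i)))
          (x.2.trans x'.2.symm)))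
  obtain ⟨L, hL⟩ := exists_minCov h9 (π := (f.comp ((MonoidHom.snd G H).comp P.subtype)).codRestrict
    (alternatingGroup Ω) fun x => x.2.2) fun τ => by
      obtain ⟨x, hx⟩ := hf τ.2
      obtain ⟨g, hg⟩ := C.surjective_of_map R θ hθ ⟨_, mapGL_mem_group (algebraMap F k) (hH x.2)⟩
      exact ⟨⟨(g, x), congrArg Subtype.val hg, (hx ▸ τ.2 : f x ∈ alternatingGroup Ω)⟩,
        Subtype.ext hx⟩
  let ρ' : G →* End k (ι → k) :=
    (toLinAlgEquiv' : Matrix ι ι k ≃ₐ[k] _).toMulEquiv.toMonoidHom.comp ((Units.coeHom _).comp ρ)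
  refine ⟨L, inferInstance, inferInstance, _,
    ρ'.comp ((MonoidHom.fst G H).comp (P.subtype.comp L.subtype)), hL, ?_,
    fun r η hη hr x hx => ?_, fun s v hs hps hse hW A hA => ?_⟩
  · exact (injective_iff_map_eq_one _).mpr fun x e => Subtype.ext (h3 _ (hρ (Units.ext
      (toLinAlgEquiv'.injective (e.trans (by simp))))))
  · have h4 : x.1.1.1 ^ r = 1 := congrArg (fun x : L => x.1.1.1) hx
    obtain ⟨g, hg, c, hc⟩ := C.exists_conj_torGL R (alg_of_finite F p) hk (θ x.1.1.1).2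
      (fun e => hr (e.trans (orderOf_dvd_of_pow_eq_one (x := θ' x.1.1.1) (by
        rw [← map_pow, h4, map_one]))))
    obtain ⟨g, rfl⟩ : ∃ g', θ' g' = g :=
      (C.surjective_of_map R θ hθ ⟨g, hg⟩).imp fun _ => congrArg Subtype.val
    obtain ⟨c, rfl⟩ := (C.torGL_mem_hSub_iff R).mp (hk.ge ⟨c, rfl⟩)
    obtain ⟨v, -, hv⟩ := h2 (g⁻¹ * x.1.1.1 * g * (h.hHom R c)⁻¹) (by
      rw [map_mul, map_mul, map_mul, map_inv, map_inv, h1, ← hc, mul_inv_eq_one]; rfl)
    have h5 : x.1.1.1 = g * h.hHom R (v * c) * g⁻¹ := by rw [map_mul, hv]; group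
    have h6 : (v * c) ^ r = 1 := hi (by
      rwa [h5, conj_pow, conj_eq_one_iff, ← map_pow, ← map_one (h.hHom R)] at h4)
    choose j hj using fun i => hη ((v * c) i : kˣ) (congrArg Units.val (congrFun h6 i))
    refine ⟨fun i => (j i).cast, ?_⟩
    change Diag η (ρ' x.1.1.1) _
    rw [h5]
    refine Diag.conj ⟨ι, inferInstance, Pi.basisFun k ι, _, fun a => ?_, rfl⟩ g
    change (ρ (h.hHom R (v * c)) : Matrix ι ι k) *ᵥ _ = _
    rw [hwt, Pi.basisFun_apply, diagonal_mulVec_single, ← Pi.single_smul, smul_eq_mul, chr,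
      Units.coe_prod, dotProduct, Int.cast_sum]
    congr 2
    refine ((map_prod η.toMonoidHom _ _).trans (Finset.prod_congr rfl fun i _ => ?_)).symm
    rw [Int.cast_mul, ZMod.intCast_cast, ZMod.cast_id, ← zsmul_eq_mul, Units.val_zpow_eq_zpow_val,
      ← hj]
    exact η.map_zsmul_eq_zpow _ _
  · have := Fact.mk hs
    let ψ : A →* GL D.Idx F :=
      H.subtype.comp ((MonoidHom.snd G H).comp (P.subtype.comp (L.subtype.comp A.subtype)))
    rw [Nat.card_congr (MonoidHom.ofInjective (f := ψ) ((injective_iff_map_eq_one _).mpr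
      fun a ha => Subtype.ext (Subtype.ext (h3 _ ?_)))).toEquiv]
    · refine card_le_chev C R (coprime_card p hs hps) hW ?_ ?_
      · rintro _ ⟨a, rfl⟩
        exact hH a.1.1.1.2.2
      · rintro _ ⟨a, rfl⟩
        rw [← map_pow, show a ^ s = 1 from Subtype.ext (hA _ a.2), map_one]
    · obtain ⟨v, hv, e'⟩ := h2 a.1.1.1.1 (a.1.1.2.1.trans
        ((congrArg (mapGL D (algebraMap F k)) ha).trans (map_one _)))
      exact (pow_eq_one_iff_of_coprime ((hs.coprime_iff_not_dvd).mpr hse)).mp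
        ⟨congrArg (fun x : L => x.1.1.1) (hA _ a.2), by rw [← e', ← map_pow, hv, map_one]⟩

section inst

variable {F : Type u} [Field F] [Finite F] (p : ℕ) [hp : Fact p.Prime] [CharP F p]
  (k : Type u) [Field k] [IsAlgClosed k] [CharP k p] [Algebra F k] [Algebra.IsAlgebraic F k]
  {Ω : Type} [Fintype Ω] [DecidableEq Ω] (h9 : 9 ≤ Fintype.card Ω)
include h9

theorem exists_pack_rep {C : Cert D} (A : Rep C) {cs : List (List (ℕ × ℤ))}
    (hA : A.spanChk cs = true) {d : List ℕ} (hd : CartanSNF D d) {e : ℕ} [NeZero e]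
    (he : ∀ i, d.getD i 1 ∣ e) (hS : Sec (D.group F) (alternatingGroup (Fin (Fintype.card Ω)))) :
    ∃ (H : Type u) (_ : Group H) (_ : Finite H) (π : H →* alternatingGroup Ω)
      (σ : H →* End k (Fin A.P.d → k)), Pack p D.rank e (Nat.card R.weyl.W)
        (fun a i => A.wt A.P.finCoding a i) π σ :=
  have h := (A.stRelN_xg A.P.finCoding k R).map_hHom (A.stRelN _ k R) R (Subgroup.subtype _)
    fun _ _ _ => rfl
  exists_pack C R p (A.stRelN_xg _ k R) (A.closure_xg _ k) (A.toAdj _ k R)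
    (fun _ hr => A.toAdj_xg _ R hr) hd he (Subgroup.subtype _) Subtype.val_injective
    (fun v => by rw [h, A.coe_hHom]) (fun v w e => A.hHom_injective _ R (A.span_of_chk _ hA) (by
      rw [← h, ← h, e])) h9 hS

theorem pack6 (hS : Sec (chevE6.group F) (alternatingGroup (Fin (Fintype.card Ω)))) :
    ∃ (H : Type u) (_ : Group H) (_ : Finite H) (π : H →* alternatingGroup Ω)
      (σ : H →* End k (Fin 27 → k)), Pack p 6 3 51840 (fun a : Fin 27 => alc6.wt a) π σ :=
  card_W_E6 (hasC_E6 rootE6) ▸ exists_pack_rep rootE6 p k h9 repE6 rspanE6 cartanSNF_E6 (fun i => by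
    rcases i with _ | _ | _ | _ | _ | _ | i <;> simp) hS

theorem pack7 (hS : Sec (chevE7.group F) (alternatingGroup (Fin (Fintype.card Ω)))) :
    ∃ (H : Type u) (_ : Group H) (_ : Finite H) (π : H →* alternatingGroup Ω)
      (σ : H →* End k (Fin 56 → k)), Pack p 7 2 2903040 (fun a : Fin 56 => alc7.wt a) π σ :=
  card_W_E7 (hasC_E7 rootE7) ▸ exists_pack_rep rootE7 p k h9 repE7 rspanE7 cartanSNF_E7 (fun i => by
    rcases i with _ | _ | _ | _ | _ | _ | _ | i <;> simp) hS

theorem pack8 (hS : Sec (chevE8.group F) (alternatingGroup (Fin (Fintype.card Ω)))) :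
    ∃ (H : Type u) (_ : Group H) (_ : Finite H) (π : H →* alternatingGroup Ω)
      (σ : H →* End k (Fin 8 ⊕ Fin 240 → k)),
        Pack p 8 1 696729600 (Sum.elim (0 : Fin 8 → _) fun a : Fin 240 => alc8.wt a) π σ :=
  have h : ∀ v, ((certE8.stRelN_xG k rootE8).hHom rootE8 v).1 = _ := fun v =>
    ((certE8.stRelN_xG k rootE8).map_hHom (certE8.stRelN k rootE8) rootE8 (Subgroup.subtype _)
      (fun _ _ _ => rfl) v).trans (certE8.hHom_eq rootE8 v)
  have hd : ∀ i, [1, 1, 1, 1, 1, 1, 1, 1].getD i 1 = 1 := fun i => by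
    rcases i with _ | _ | _ | _ | _ | _ | _ | _ | i <;> rfl
  card_W_E8 (hasC_E8 rootE8) ▸ exists_pack certE8 rootE8 p (certE8.stRelN_xG k rootE8)
    (certE8.closure_xG_eq_top rootE8) (.id _) (fun _ _ _ => rfl) cartanSNF_E8
    (fun i => (hd i).dvd) (Subgroup.subtype _) Subtype.val_injective (fun v => by
      refine (congrArg Units.val (h v)).trans (congrArg diagonal (funext ?_))
      rintro (a | a)
      · exact (congrArg Units.val (chr_zero v)).symm
      · exact congrArg Units.val ((rootE8.chr_cartanHom v a.2).trans (Finset.prod_congr rfl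
          fun i _ => congrArg _ (certE8.lk.ca_eq i i.2 a a.2))))
    (fun v w e => cartanSNF_E8.injective kˣ (fun i a ha => by rwa [hd, pow_one] at ha)
      (torGL_injective rootE8 (by rw [← h, ← h, e]))) h9 hS

end inst

end Cfsg.Lib.Cor.AltE
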